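import Cfsg.Agent.SchurBound.Main

set_option autoImplicit false
set_option linter.style.haveILetI false

/-!
Two certificates bound the `p`-part of a Schur multiplier by `p ^ (k * r)`: it has exponent
dividing `p ^ k` and can be generated by `r` elements.
-/

namespace Cfsg.Agent.SchurSmall

open Subgroup Cfsg.Agent.SchurCert Cfsg.Agent.SchurBound

universe u v

/-- A commutative group of exponent `p ^ k` with few elements of order `p` is small. -/
theorem card_le_of_exponent {p r : ℕ} : ∀ (k : ℕ) (A : Type u) [CommGroup A] [Finite A],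
    (∀ x : A, x ^ p ^ k = 1) → Nat.card (powMonoidHom p : A →* A).ker ≤ p ^ r →
      Nat.card A ≤ p ^ (k * r)
  | 0, A, _, _, h, _ => by
    haveI : Subsingleton A := ⟨fun a b => by
      have ha := h a; have hb := h b; simp only [pow_zero, pow_one] at ha hb; rw [ha, hb]⟩
    simp
  | k + 1, A, _, _, h, hker => by
    set R := (powMonoidHom p : A →* A).range with hR
    have ih := card_le_of_exponent k R (fun x => by
      obtain ⟨y, hy⟩ := x.2
      refine Subtype.ext ?_
      rw [SubmonoidClass.coe_pow, ← hy, powMonoidHom_apply, ← pow_mul, ← pow_succ', h, coe_one])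
      (le_trans (Nat.card_le_card_of_injective
        (fun x => (⟨((x : R) : A), by
          have hx := x.2
          rw [MonoidHom.mem_ker, powMonoidHom_apply] at hx ⊢
          exact congrArg Subtype.val hx⟩ : (powMonoidHom p : A →* A).ker))
        (fun x y hxy => Subtype.coe_injective (Subtype.coe_injective (Subtype.mk.inj hxy)))) hker)
    have hcard := (powMonoidHom p : A →* A).ker.card_mul_index
    rw [Subgroup.index_ker] at hcard
    rw [← hcard, Nat.succ_mul, pow_add, mul_comm]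
    exact Nat.mul_le_mul ih hker

/-- An element of large order in a finite commutative `p`-group gives a large cyclic quotient. -/
theorem exists_cyclic_quotient {A : Type u} [CommGroup A] [Finite A] {p k : ℕ} [Fact p.Prime]
    (hA : IsPGroup p A) {g : A} (hg : g ^ p ^ k ≠ 1) :
    ∃ (N : Subgroup A) (a : A), N.index = p ^ (k + 1) ∧ ∀ x : A, ∃ j : ℤ, x * (a ^ j)⁻¹ ∈ N := by
  have hp : p.Prime := Fact.out
  obtain ⟨N, hN⟩ := (Set.toFinite {N : Subgroup A | g ^ p ^ k ∉ N}).exists_maximal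
    ⟨⊥, show g ^ p ^ k ∉ (⊥ : Subgroup A) by rwa [Subgroup.mem_bot]⟩
  have hNz : g ^ p ^ k ∉ N := hN.prop
  set Q := A ⧸ N
  set z : Q := ((g ^ p ^ k : A) : A ⧸ N) with hz
  have hz1 : z ≠ 1 := by rwa [hz, Ne, QuotientGroup.eq_one_iff]
  have hQ : IsPGroup p Q := hA.to_quotient N
  have hall : ∀ H : Subgroup Q, H ≠ ⊥ → z ∈ H := by
    intro H hH
    by_contra hzH
    have hle : H.comap (QuotientGroup.mk' N) ≤ N :=
      hN.2 (show g ^ p ^ k ∉ H.comap (QuotientGroup.mk' N) from hzH) (fun x hx => by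
        rw [Subgroup.mem_comap, QuotientGroup.mk'_apply, (QuotientGroup.eq_one_iff (N := N) x).2 hx]
        exact one_mem H)
    refine hH ((Subgroup.eq_bot_iff_forall _).2 fun x hx => ?_)
    obtain ⟨y, rfl⟩ := QuotientGroup.mk_surjective x
    exact (QuotientGroup.eq_one_iff y).2 (hle hx)
  have hsmall : Nat.card (powMonoidHom p : Q →* Q).ker ≤ p := by
    by_cases hK : (powMonoidHom p : Q →* Q).ker = ⊥
    · rw [hK, Subgroup.card_bot]; exact hp.one_lt.le
    · have hzp : z ^ p = 1 := hall _ hK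
      refine le_trans (Nat.card_le_card_of_injective
        (fun x => (⟨(x : Q), ?_⟩ : zpowers z)) fun x y hxy =>
          Subtype.coe_injective (Subtype.mk.inj hxy)) (by
        rw [Nat.card_zpowers]; exact Nat.le_of_dvd hp.pos (orderOf_dvd_of_pow_eq_one hzp))
      by_cases hx1 : (x : Q) = 1
      · rw [hx1]; exact one_mem _
      · have hzx := hall (zpowers (x : Q)) (by rwa [Ne, Subgroup.zpowers_eq_bot])
        obtain ⟨j, hj⟩ := Subgroup.mem_zpowers_iff.1 hzx
        have hxord : orderOf (x : Q) = p := orderOf_eq_prime x.2 hx1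
        have hle : zpowers z ≤ zpowers (x : Q) := Subgroup.zpowers_le.2 hzx
        have heq : zpowers z = zpowers (x : Q) := Subgroup.eq_of_le_of_card_ge hle (by
          rw [Nat.card_zpowers, Nat.card_zpowers, hxord, orderOf_eq_prime hzp hz1])
        rw [heq]; exact Subgroup.mem_zpowers _
  obtain ⟨a, ha⟩ : ∃ a : Q, zpowers a = ⊤ := by
    refine (cyclic_or_exists_quotient hQ).resolve_right ?_
    rintro ⟨K, hKp, hKc⟩
    have h1 : (powMonoidHom p : Q →* Q).range ≤ K := by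
      rintro _ ⟨x, rfl⟩; exact hKp x
    have h2 := Subgroup.card_le_of_le h1
    have h3 := (powMonoidHom p : Q →* Q).ker.card_mul_index
    rw [Subgroup.index_ker, ← hKc] at h3
    have h4 : Nat.card K * p ^ 2 ≤ p * Nat.card K := h3 ▸ Nat.mul_le_mul hsmall h2
    have h5 := hp.two_le
    have h6 : 0 < Nat.card K := Nat.card_pos
    have h7 : p ^ 2 ≤ p := Nat.le_of_mul_le_mul_left (by rwa [mul_comm p] at h4) h6
    nlinarith
  obtain ⟨a, rfl⟩ := QuotientGroup.mk_surjective a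
  have hord : p ^ (k + 1) ∣ orderOf ((a : A) : A ⧸ N) := by
    obtain ⟨m, hm⟩ := hQ.exists_card_eq
    have hc : orderOf ((a : A) : A ⧸ N) = p ^ m := by
      rw [← Nat.card_zpowers, ha, Subgroup.card_top, hm]
    rw [hc]
    refine pow_dvd_pow p ?_
    by_contra hlt
    apply hz1
    rw [hz, QuotientGroup.mk_pow, ← Nat.sub_add_cancel (show m ≤ k by omega), pow_add, mul_comm,
      pow_mul, ← hm, pow_card_eq_one', one_pow]
  refine ⟨(zpowers (((a : A) : A ⧸ N) ^ p ^ (k + 1))).comap (QuotientGroup.mk' N), a, ?_, fun x => ?_⟩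
  · rw [Subgroup.index_comap_of_surjective _ (QuotientGroup.mk'_surjective N)]
    have h := (zpowers (((a : A) : A ⧸ N) ^ p ^ (k + 1))).card_mul_index
    rw [Nat.card_zpowers, orderOf_pow, Nat.gcd_eq_right hord,
      show Nat.card (A ⧸ N) = orderOf ((a : A) : A ⧸ N) by
        rw [← Nat.card_zpowers, ha, Subgroup.card_top]] at h
    obtain ⟨c, hc⟩ := hord
    have hpos : 0 < p ^ (k + 1) := pow_pos hp.pos _
    rw [hc, Nat.mul_div_cancel_left c hpos] at h
    have hc0 : 0 < c := by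
      rcases Nat.eq_zero_or_pos c with rfl | h0
      · rw [mul_zero] at hc; exact absurd hc (orderOf_pos _).ne'
      · exact h0
    rw [mul_comm (p ^ (k + 1))] at h
    exact Nat.eq_of_mul_eq_mul_left hc0 h
  · obtain ⟨j, hj⟩ := Subgroup.mem_zpowers_iff.1 (ha ▸ Subgroup.mem_top ((x : A) : A ⧸ N))
    refine ⟨j, ?_⟩
    rw [Subgroup.mem_comap, QuotientGroup.mk'_apply, QuotientGroup.mk_mul, QuotientGroup.mk_inv,
      QuotientGroup.mk_zpow, hj, mul_inv_cancel]
    exact one_mem _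

variable {G : Type v} [Group G] [Finite G] (C : Code G)

theorem not_bcert_cyclic {p k : ℕ} {B : BCert} {gen gsE : ℕ → G} (h : Applies C B p gen gsE)
    (hq : B.q = p ^ (k + 1)) (hs : B.scale = p ^ k) (hk : B.kills = [])
    {Δ : Type u} [Group Δ] [Finite Δ] {τ : Δ →* G} (hτ : Cfsg.IsStemExtension τ)
    (hpk : IsPGroup p τ.ker) (g : τ.ker) : g ^ p ^ k = 1 := by
  have hp := h.hp
  haveI : Fact p.Prime := ⟨hp⟩
  by_contra hg
  let _ : CommGroup τ.ker :=
    { (inferInstance : Group τ.ker) with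
      mul_comm := fun a b => Subtype.ext ((Subgroup.mem_center_iff.1 (hτ.2.1 b.2)) (a : Δ)) }
  obtain ⟨N, a, hidx, hdec⟩ := exists_cyclic_quotient hpk hg
  obtain ⟨Ω, _, _, θ, π, hθ, hπ, hcomp, hπk, hθk, hθcard⟩ := exists_quotient_stem hτ N
  have hker : θ.ker = Subgroup.zpowers (π (a : Δ)) := by
    refine le_antisymm (fun y hy => ?_) (Subgroup.zpowers_le.2 (by
      rw [hθk]; exact Subgroup.mem_map_of_mem π a.2))
    rw [hθk] at hy
    obtain ⟨x, hx, rfl⟩ := hy
    obtain ⟨j, hj⟩ := hdec ⟨x, hx⟩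
    refine Subgroup.mem_zpowers_iff.2 ⟨j, ?_⟩
    have h1 : x * ((a : Δ) ^ j)⁻¹ ∈ π.ker := hπk ▸ ⟨_, hj, by simp⟩
    rw [MonoidHom.mem_ker, map_mul, map_inv, map_zpow, mul_inv_eq_one] at h1
    exact h1.symm
  have hord : orderOf (π (a : Δ)) = B.q := by
    rw [hq, ← Nat.card_zpowers, ← hker]
    rw [← N.card_mul_index, hidx, mul_comm] at hθcard
    exact Nat.eq_of_mul_eq_mul_left Nat.card_pos hθcard
  have hgrp := h.hcheck
  simp only [BCert.check, Bool.and_eq_true] at hgrp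
  obtain ⟨hsat, -⟩ := card_initGroup_of_groupOK C B.D (h.hP.symm ▸ hp) gen h.hgen
    hgrp.1.1.1 hgrp.1.1.2
  obtain ⟨δ, hδk, hδp, hδc⟩ := exists_defects gen hsat θ
    (fun i => Function.surjInv hθ.1 (gen i)) (fun i => Function.surjInv_eq hθ.1 _)
  exact not_stem_of_bcert C h (by rw [hq, hs, pow_succ'])
    (by rw [hs]; exact pow_pos hp.pos k) θ hθ (π (a : Δ)) hker hord _
    (fun i => Function.surjInv_eq hθ.1 _) δ hδk hδp hδc
    (fun L hL => by rw [hk] at hL; exact absurd hL List.not_mem_nil)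

/-- The subgroup generated by `r` elements of order `p` of a commutative group has order at most
`p ^ r`. -/
theorem exists_small_subgroup {A : Type u} [CommGroup A] [Finite A] {p : ℕ}
    (hp : 0 < p) (hexp : ∀ x : A, x ^ p = 1) :
    ∀ L : List A, ∃ H : Subgroup A, Nat.card H ≤ p ^ L.length ∧ ∀ x ∈ L, x ∈ H
  | [] => ⟨⊥, by simp, by simp⟩
  | a :: L => by
    obtain ⟨H, hH, hL⟩ := exists_small_subgroup hp hexp L
    refine ⟨H ⊔ zpowers a, ?_, fun x hx => ?_⟩
    · rw [List.length_cons, pow_succ]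
      have h1 : Nat.card (H ⊔ zpowers a : Subgroup A) ≤ Nat.card H * Nat.card (zpowers a) := by
        rw [← Nat.card_prod]
        refine Nat.card_le_card_of_surjective (fun x : H × zpowers a =>
          (⟨(x.1 : A) * x.2, mul_mem (mem_sup_left x.1.2) (mem_sup_right x.2.2)⟩ :
            (H ⊔ zpowers a : Subgroup A))) ?_
        rintro ⟨y, hy⟩
        obtain ⟨s, hs, t, ht, rfl⟩ := Subgroup.mem_sup.1 hy
        exact ⟨(⟨s, hs⟩, ⟨t, ht⟩), rfl⟩
      refine h1.trans (Nat.mul_le_mul hH ?_)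
      rw [Nat.card_zpowers]
      exact Nat.le_of_dvd hp (orderOf_dvd_of_pow_eq_one (hexp a))
    · rcases List.mem_cons.1 hx with rfl | hx
      · exact mem_sup_right (Subgroup.mem_zpowers x)
      · exact mem_sup_left (hL x hx)

theorem card_quotient_pow_le {p r : ℕ} {B : BCert} {gen gsE : ℕ → G} (h : Applies C B p gen gsE)
    (hq : B.q = p) (hs : B.scale = 1) (hk : B.kills.length ≤ r)
    {Δ : Type u} [Group Δ] [Finite Δ] {τ : Δ →* G} (hτ : Cfsg.IsStemExtension τ)
    [hc : IsMulCommutative τ.ker] (hpk : IsPGroup p τ.ker)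
    (R : Subgroup τ.ker) (hR : ∀ x : τ.ker, x ^ p ∈ R) : R.index ≤ p ^ r := by
  have hp := h.hp
  haveI : Fact p.Prime := ⟨hp⟩
  by_contra hlt
  obtain ⟨e, he⟩ : ∃ e, R.index = p ^ e := by
    obtain ⟨e, -, he⟩ := (Nat.dvd_prime_pow hp).1 (hpk.exists_card_eq.choose_spec ▸ R.index_dvd_card)
    exact ⟨e, he⟩
  have her : r + 1 ≤ e := by
    by_contra hle
    exact hlt (he ▸ Nat.pow_le_pow_right hp.pos (by omega))
  -- a subgroup of index `p ^ (r + 1)` containing all powers
  haveI : R.Normal := ⟨fun n hn g => by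
    rwa [mul_comm' g n, mul_inv_cancel_right]⟩
  obtain ⟨S, hS⟩ := Sylow.exists_subgroup_card_pow_prime (G := τ.ker ⧸ R) p (n := e - (r + 1))
    (by rw [← Subgroup.index_eq_card, he]; exact pow_dvd_pow p (Nat.sub_le _ _))
  set M := S.comap (QuotientGroup.mk' R) with hM
  have hMidx : M.index = p ^ (r + 1) := by
    rw [hM, Subgroup.index_comap_of_surjective _ (QuotientGroup.mk'_surjective R)]
    have h1 := S.card_mul_index
    rw [hS, ← Subgroup.index_eq_card, he] at h1
    refine Nat.eq_of_mul_eq_mul_left (pow_pos hp.pos (e - (r + 1))) (h1.trans ?_)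
    rw [← pow_add, Nat.sub_add_cancel her]
  have hMp : ∀ x : τ.ker, x ^ p ∈ M := fun x => by
    rw [hM, Subgroup.mem_comap, QuotientGroup.mk'_apply, (QuotientGroup.eq_one_iff _).2 (hR x)]
    exact one_mem S
  obtain ⟨Ω, _, _, θ, π, hθ, hπ, hcomp, hπk, hθk, hθcard⟩ := exists_quotient_stem hτ M
  have hc2 : Nat.card θ.ker = p ^ (r + 1) := by
    rw [← M.card_mul_index, hMidx, mul_comm] at hθcard
    exact Nat.eq_of_mul_eq_mul_left Nat.card_pos hθcard
  let _ : CommGroup θ.ker :=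
    { (inferInstance : Group θ.ker) with
      mul_comm := fun a b => Subtype.ext ((Subgroup.mem_center_iff.1 (hθ.2.1 b.2)) (a : Ω)) }
  have hexp : ∀ x : θ.ker, x ^ p = 1 := by
    rintro ⟨x, hx⟩
    rw [hθk] at hx
    obtain ⟨y, hy, rfl⟩ := hx
    refine Subtype.ext ?_
    show π y ^ p = 1
    rw [← map_pow, ← MonoidHom.mem_ker, hπk]
    exact ⟨(⟨y, hy⟩ : τ.ker) ^ p, hMp _, rfl⟩
  have hgrp := h.hcheck
  simp only [BCert.check, Bool.and_eq_true] at hgrp
  obtain ⟨hsat, -⟩ := card_initGroup_of_groupOK C B.D (h.hP.symm ▸ hp) gen h.hgen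
    hgrp.1.1.1 hgrp.1.1.2
  set s : ℕ → Ω := fun i => Function.surjInv hθ.1 (gen i) with hsdef
  obtain ⟨δ, hδk, hδp, hδc⟩ := exists_defects gen hsat θ s (fun i => Function.surjInv_eq hθ.1 _)
  let δ' : ℕ → θ.ker := fun l => ⟨δ l, hδk l⟩
  obtain ⟨H₀, hH₀, hmem⟩ := exists_small_subgroup hp.pos hexp (B.kills.map fun L => (L.map δ').prod)
  rw [List.length_map] at hH₀
  have hθp : IsPGroup p θ.ker := IsPGroup.of_card hc2
  obtain ⟨i, hi⟩ := (hθp.to_subgroup H₀).exists_card_eq
  have hir : i ≤ r := by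
    by_contra hlt'
    have : p ^ r < p ^ i := Nat.pow_lt_pow_right hp.one_lt (by omega)
    have := hH₀.trans (Nat.pow_le_pow_right hp.pos hk)
    omega
  obtain ⟨K, hKc, hK⟩ := Sylow.exists_subgroup_card_pow_prime_le (G := θ.ker) p
    (by rw [hc2]; exact pow_dvd_pow p (Nat.le_succ r)) H₀ hi hir
  obtain ⟨Φ, _, _, ψ, ρ, hψ, hρ, hcomp', hρk, hψk, hψcard⟩ := exists_quotient_stem hθ K
  have hpc : Nat.card ψ.ker = p := by
    rw [hc2, hKc, pow_succ, mul_comm (p ^ r)] at hψcard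
    exact Nat.eq_of_mul_eq_mul_right (pow_pos hp.pos r) hψcard
  obtain ⟨z, hz⟩ := exists_prime_orderOf_dvd_card' (G := ψ.ker) p (dvd_of_eq hpc.symm)
  have hzk : ψ.ker = Subgroup.zpowers (z : Φ) :=
    (Subgroup.eq_of_le_of_card_ge ((Subgroup.zpowers_le).2 z.2) (by
      rw [Nat.card_zpowers, Subgroup.orderOf_coe, hz, hpc])).symm
  refine not_stem_of_bcert C h (by rw [hq, hs, mul_one]) (by rw [hs]; exact one_pos)
    ψ hψ (z : Φ) hzk (by rw [Subgroup.orderOf_coe, hz, hq]) (fun i => ρ (s i))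
    (fun i => by rw [← MonoidHom.comp_apply, hcomp']; exact Function.surjInv_eq hθ.1 _)
    (fun l => ρ (δ l)) (fun l => ?_)
    (fun j hj => ?_) (fun j hj i hi => ?_) ?_
  · rw [hψk]; exact Subgroup.mem_map_of_mem ρ (hδk l)
  · rw [← map_pow, hδp j hj, map_mul, map_evalW]
  · rw [← map_mul, hδc j hj i hi, map_mul, map_mul, map_evalW]
  · intro L hL
    rw [show L.map (fun l => ρ (δ l)) = (L.map δ).map ρ by rw [List.map_map]; rfl, ← map_list_prod,
      ← MonoidHom.mem_ker, hρk]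
    refine ⟨(L.map δ').prod, hK (hmem _ (List.mem_map_of_mem hL)), ?_⟩
    rw [map_list_prod, List.map_map]
    rfl

/-- A rank certificate and an exponent certificate bound the `p`-part of the multiplier. -/
theorem factorization_schurMult_le {p k r : ℕ} {B₁ B₂ : BCert} {gen₁ gsE₁ gen₂ gsE₂ : ℕ → G}
    (h₁ : Applies C B₁ p gen₁ gsE₁) (h₂ : Applies C B₂ p gen₂ gsE₂)
    (hq₁ : B₁.q = p) (hs₁ : B₁.scale = 1) (hk₁ : B₁.kills.length ≤ r)
    (hq₂ : B₂.q = p ^ (k + 1)) (hs₂ : B₂.scale = p ^ k) (hk₂ : B₂.kills = []) :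
    (Nat.card (CentralExt.schurMult G)).factorization p ≤ k * r := by
  have hp := h₁.hp
  haveI : Fact p.Prime := ⟨hp⟩
  obtain ⟨W, iW, fW, θ₀, hθ₀, ⟨e⟩⟩ := CentralExt.exists_schurCover G
  obtain ⟨Δ, iΔ, fΔ, τ, hτ, hpk, hcard⟩ := CentralExt.exists_pgroup_quotient hθ₀ p
  rw [Nat.card_congr e.toEquiv] at hcard
  haveI hc : IsMulCommutative τ.ker :=
    ⟨⟨fun a b => Subtype.ext ((Subgroup.mem_center_iff.1 (hτ.2.1 b.2)) (a : Δ))⟩⟩
  let _ : CommGroup τ.ker :=
    { (inferInstance : Group τ.ker) with mul_comm := mul_comm' }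
  refine (Nat.pow_le_pow_iff_right hp.one_lt).1 ?_
  rw [← hcard]
  refine card_le_of_exponent k τ.ker (not_bcert_cyclic C h₂ hq₂ hs₂ hk₂ hτ hpk) ?_
  have hidx := card_quotient_pow_le C h₁ hq₁ hs₁ hk₁ hτ hpk
    (powMonoidHom p : τ.ker →* τ.ker).range (fun x => ⟨x, rfl⟩)
  have h3 := (powMonoidHom p : τ.ker →* τ.ker).ker.card_mul_index
  rw [Subgroup.index_ker] at h3
  have h4 := (powMonoidHom p : τ.ker →* τ.ker).range.card_mul_index
  rw [← h3, mul_comm] at h4
  exact le_of_eq_of_le (Nat.eq_of_mul_eq_mul_right Nat.card_pos h4).symm hidx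

end Cfsg.Agent.SchurSmall
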