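import Cfsg.Agent.SchurSmall.AltPullback

set_option autoImplicit false
set_option linter.style.haveILetI false

/-!
A perfect permutation group with an involution made of `4 j + 2` transpositions has a double cover,
pulled back from that of the alternating group.
-/

namespace Cfsg.Agent.SchurSmall

open Equiv Equiv.Perm
open scoped commutatorElement

/-- In a cover of an alternating group in which lifts of double transpositions square to `z`, an
involution made of `2 k` transpositions has a lift squaring to `z ^ k`. -/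
theorem exists_lift_sq {H : Type*} [Group H] {m : ℕ} (π : H →* Perm (Fin (m + 1)))
    (hr : π.range = alternatingGroup (Fin (m + 1))) (hc : π.ker ≤ Subgroup.center H)
    (hu2 : ∀ u ∈ π.ker, u * u = 1) (z : H)
    (hdouble : ∀ (a b c d : Fin (m + 1)) (X : H), a ≠ b → a ≠ c → a ≠ d → b ≠ c → b ≠ d → c ≠ d →
      π X = swap a b * swap c d → X * X = z) :
    ∀ (k : ℕ) (σ : Perm (Fin (m + 1))), σ * σ = 1 → σ.support.card = 4 * k →
      ∃ X : H, π X = σ ∧ X * X = z ^ k := by
  intro k
  induction k with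
  | zero =>
    intro σ _ hcard
    refine ⟨1, ?_, by simp⟩
    rw [Nat.mul_zero, Finset.card_eq_zero, Perm.support_eq_empty_iff] at hcard
    rw [hcard, map_one]
  | succ k ih =>
    intro σ hσ hcard
    have happ : ∀ i, σ (σ i) = i := fun i => by rw [← Perm.mul_apply, hσ, Perm.one_apply]
    obtain ⟨a, ha⟩ : σ.support.Nonempty := Finset.card_pos.1 (by omega)
    have hab : σ a ≠ a := Perm.mem_support.1 ha
    obtain ⟨c, hc', hcn⟩ := Finset.exists_mem_notMem_of_card_lt_card
      (s := ({a, σ a} : Finset (Fin (m + 1)))) (t := σ.support)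
      (lt_of_le_of_lt Finset.card_le_two (by omega))
    simp only [Finset.mem_insert, Finset.mem_singleton, not_or] at hcn
    have hcd : σ c ≠ c := Perm.mem_support.1 hc'
    have had : a ≠ σ c := fun h => hcn.2 (by rw [h, happ])
    have hbd : σ a ≠ σ c := fun h => hcn.1 (σ.injective h).symm
    set τ : Perm (Fin (m + 1)) := swap a (σ a) * swap c (σ c) with hτ
    set σ' : Perm (Fin (m + 1)) := τ * σ with hσ'
    have hτa : τ (σ a) = a := by
      rw [hτ, Perm.mul_apply, swap_apply_of_ne_of_ne (Ne.symm hcn.2) hbd, swap_apply_right]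
    have hτb : τ a = σ a := by
      rw [hτ, Perm.mul_apply, swap_apply_of_ne_of_ne (Ne.symm hcn.1) had, swap_apply_left]
    have hτc : τ (σ c) = c := by
      rw [hτ, Perm.mul_apply, swap_apply_right, swap_apply_of_ne_of_ne hcn.1 hcn.2]
    have hτd : τ c = σ c := by
      rw [hτ, Perm.mul_apply, swap_apply_left, swap_apply_of_ne_of_ne had.symm hbd.symm]
    have hfix : σ' a = a ∧ σ' (σ a) = σ a ∧ σ' c = c ∧ σ' (σ c) = σ c := by
      refine ⟨?_, ?_, ?_, ?_⟩ <;> simp only [hσ', Perm.mul_apply, happ]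
      exacts [hτa, hτb, hτc, hτd]
    have hout : ∀ i, i ≠ a → i ≠ σ a → i ≠ c → i ≠ σ c → σ' i = σ i := by
      intro i h1 h2 h3 h4
      have e1 : σ i ≠ a := fun h => h2 (by rw [← h, happ])
      have e2 : σ i ≠ σ a := fun h => h1 (σ.injective h)
      have e3 : σ i ≠ c := fun h => h4 (by rw [← h, happ])
      have e4 : σ i ≠ σ c := fun h => h3 (σ.injective h)
      rw [hσ', Perm.mul_apply, hτ, Perm.mul_apply, swap_apply_of_ne_of_ne e3 e4,
        swap_apply_of_ne_of_ne e1 e2]
    have hττ : τ * τ = 1 := by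
      refine Equiv.ext fun i => ?_
      rw [Perm.mul_apply, Perm.one_apply]
      by_cases hi : i = a ∨ i = σ a ∨ i = c ∨ i = σ c
      · rcases hi with rfl | rfl | rfl | rfl
        exacts [by rw [hτb, hτa], by rw [hτa, hτb], by rw [hτd, hτc], by rw [hτc, hτd]]
      · simp only [not_or] at hi
        obtain ⟨h1, h2, h3, h4⟩ := hi
        have hi' : τ i = i := by
          rw [hτ, Perm.mul_apply, swap_apply_of_ne_of_ne h3 h4, swap_apply_of_ne_of_ne h1 h2]
        rw [hi', hi']
    have hsupp : σ'.support = σ.support \ {a, σ a, c, σ c} := by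
      ext i
      simp only [Perm.mem_support, Finset.mem_sdiff, Finset.mem_insert, Finset.mem_singleton, not_or]
      constructor
      · intro hi
        have h1 : i ≠ a := fun h => hi (h ▸ hfix.1)
        have h2 : i ≠ σ a := fun h => hi (h ▸ hfix.2.1)
        have h3 : i ≠ c := fun h => hi (h ▸ hfix.2.2.1)
        have h4 : i ≠ σ c := fun h => hi (h ▸ hfix.2.2.2)
        exact ⟨by rwa [hout i h1 h2 h3 h4] at hi, h1, h2, h3, h4⟩
      · rintro ⟨hi, h1, h2, h3, h4⟩
        rwa [hout i h1 h2 h3 h4]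
    have hsub : ({a, σ a, c, σ c} : Finset (Fin (m + 1))) ⊆ σ.support := by
      intro i hi
      simp only [Finset.mem_insert, Finset.mem_singleton] at hi
      rw [Perm.mem_support]
      rcases hi with rfl | rfl | rfl | rfl
      exacts [hab, fun h => hab (σ.injective h), hcd, fun h => hcd (σ.injective h)]
    have h4 : ({a, σ a, c, σ c} : Finset (Fin (m + 1))).card = 4 := by
      rw [Finset.card_insert_of_notMem (by simp [hab.symm, had, Ne.symm hcn.1]),
        Finset.card_insert_of_notMem (by simp [hbd, Ne.symm hcn.2]), Finset.card_pair hcd.symm]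
    have hcard' : σ'.support.card = 4 * k := by
      rw [hsupp, Finset.card_sdiff_of_subset hsub, h4, hcard]; omega
    have hinv : σ' * σ' = 1 := by
      refine Equiv.ext fun i => ?_
      rw [Perm.mul_apply, Perm.one_apply]
      by_cases hi : i = a ∨ i = σ a ∨ i = c ∨ i = σ c
      · rcases hi with rfl | rfl | rfl | rfl
        exacts [by rw [hfix.1, hfix.1], by rw [hfix.2.1, hfix.2.1], by rw [hfix.2.2.1, hfix.2.2.1],
          by rw [hfix.2.2.2, hfix.2.2.2]]
      · simp only [not_or] at hi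
        obtain ⟨h1, h2, h3, h4⟩ := hi
        rw [hout i h1 h2 h3 h4, hout (σ i) (fun h => h2 (by rw [← h, happ]))
          (fun h => h1 (σ.injective h)) (fun h => h4 (by rw [← h, happ]))
          (fun h => h3 (σ.injective h)), happ]
    obtain ⟨X', hX', hX'2⟩ := ih σ' hinv hcard'
    obtain ⟨X₁, hX₁⟩ := AltCoverComm.exists_lift π hr (σ := τ)
      (by rw [hτ, map_mul, sign_swap hab.symm, sign_swap hcd.symm]; rfl)
    have hs' : Perm.sign σ' = 1 := by
      rw [← Perm.mem_alternatingGroup, ← hr]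
      exact ⟨X', hX'⟩
    have hcomm : Commute X₁ X' := AltCoverComm.disjoint_commute π hr hc hu2 hfix.1 hfix.2.2.1
      hfix.2.1 hfix.2.2.2 hs' hX₁ hX'
    refine ⟨X₁ * X', ?_, ?_⟩
    · rw [map_mul, hX₁, hX', hσ', ← mul_assoc, hττ, one_mul]
    · rw [← pow_two, hcomm.mul_pow, pow_two, pow_two,
        hdouble a (σ a) c (σ c) X₁ hab.symm (Ne.symm hcn.1) had (Ne.symm hcn.2) hbd hcd.symm hX₁,
        hX'2, ← pow_succ']

/-- A perfect group acting with an involution that moves `8 j + 4` points has a double cover. -/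
theorem exists_stem_two_of_support {G : Type} [Group G] [Finite G] (hperf : commutator G = ⊤) {m : ℕ}
    (hm : 4 ≤ m) (ψ : G →* Perm (Fin (m + 1))) (x : G) (hx : x * x = 1) (j : ℕ)
    (hψ : (ψ x).support.card = 8 * j + 4) :
    ∃ (W : Type) (_ : Group W) (_ : Finite W) (σ : W →* G),
      Cfsg.IsStemExtension σ ∧ Nat.card σ.ker = 2 := by
  obtain ⟨H, _, _, z, π₀, hz, hzc, hsurj, hker, hcen, ⟨u, v, -, -, huv⟩, -⟩ :=
    SporB.DoubleCover.exists_cover (m + 1) (by omega)
  let π : H →* Perm (Fin (m + 1)) := (alternatingGroup (Fin (m + 1))).subtype.comp π₀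
  have hkπ : π.ker = Subgroup.zpowers z := by
    rw [← hker]; exact MonoidHom.ker_comp_of_injective π₀ _ (Subgroup.subtype_injective _)
  have hr : π.range = alternatingGroup (Fin (m + 1)) := by
    rw [MonoidHom.range_comp, MonoidHom.range_eq_top.2 hsurj, ← MonoidHom.range_eq_map,
      Subgroup.range_subtype]
  have hzz : z * z = 1 := by rw [← pow_two, ← hz, pow_orderOf_eq_one]
  have hz1 : z ≠ 1 := fun h => by rw [h, orderOf_one] at hz; omega
  have hk2 : ∀ w ∈ π.ker, w = 1 ∨ w = z := by
    intro w hw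
    rw [hkπ] at hw
    obtain ⟨k, rfl⟩ := Subgroup.mem_zpowers_iff.1 hw
    rw [← zpow_mod_orderOf, hz]
    rcases Int.emod_two_eq_zero_or_one k with h | h <;> simp [h]
  have hc : π.ker ≤ Subgroup.center H := hkπ ▸ Subgroup.zpowers_le.2 hzc
  have hd : π.ker ≤ commutator H := by
    rw [hkπ, Subgroup.zpowers_le]
    have e : z = ⁅u, v⁆ := by rw [commutatorElement_def, huv]; group
    rw [e]
    exact Subgroup.commutator_mem_commutator (Subgroup.mem_top u) (Subgroup.mem_top v)
  have hu2 : ∀ w ∈ π.ker, w * w = 1 := fun w hw => by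
    rcases hk2 w hw with rfl | rfl
    · exact one_mul 1
    · exact hzz
  have hne : π.ker ≠ ⊥ := by rw [hkπ, Ne, Subgroup.zpowers_eq_bot]; exact hz1
  have hψx : ψ x * ψ x = 1 := by rw [← map_mul, hx, map_one]
  obtain ⟨X, hX, hXX'⟩ := exists_lift_sq π hr hc hu2 z
    (fun a b c d X h1 h2 h3 h4 h5 h6 hX => by
      obtain ⟨hk, hn⟩ := sq_lift_double (by omega) π hr hc hd hu2 hne h1 h2 h3 h4 h5 h6 hX
      exact (hk2 _ hk).resolve_left hn)
    (2 * j + 1) (ψ x) hψx (by omega)
  have hXX : X * X = z := by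
    rw [hXX', pow_succ, pow_mul, pow_two, hzz, one_pow, one_mul]
  -- the pullback
  have hrange : ∀ g : G, ψ g ∈ π.range := fun g => by
    rw [hr, Perm.mem_alternatingGroup]
    have h : g ∈ (Perm.sign.comp ψ).ker := by
      have : commutator G ≤ (Perm.sign.comp ψ).ker :=
        Abelianization.commutator_subset_ker _
      exact this (hperf ▸ Subgroup.mem_top g)
    exact h
  let W : Subgroup (G × H) := MonoidHom.eqLocus (ψ.comp (MonoidHom.fst G H)) (π.comp (MonoidHom.snd G H))
  let σ : W →* G := (MonoidHom.fst G H).comp W.subtype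
  have hσ : Function.Surjective σ := fun g => by
    obtain ⟨h, hh⟩ := hrange g
    exact ⟨⟨(g, h), hh.symm⟩, rfl⟩
  have hmem : ∀ w : W, w ∈ σ.ker → (w.1.1 = 1 ∧ w.1.2 ∈ π.ker) := fun w hw => by
    have h1 : w.1.1 = 1 := hw
    refine ⟨h1, ?_⟩
    have h2 : ψ w.1.1 = π w.1.2 := w.2
    rw [h1, map_one] at h2
    exact h2.symm
  have hcenW : σ.ker ≤ Subgroup.center W := fun w hw => by
    obtain ⟨h1, h2⟩ := hmem w hw
    refine Subgroup.mem_center_iff.2 fun y => Subtype.ext (Prod.ext ?_ ?_)
    · show y.1.1 * w.1.1 = w.1.1 * y.1.1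
      rw [h1, mul_one, one_mul]
    · exact Subgroup.mem_center_iff.1 (hc h2) y.1.2
  let zW : W := ⟨(1, z), by
    show ψ 1 = π z
    rw [map_one, (show π z = 1 from (hkπ ▸ Subgroup.mem_zpowers z : z ∈ π.ker))]⟩
  have hkerW : ∀ w : W, w ∈ σ.ker → w = 1 ∨ w = zW := fun w hw => by
    obtain ⟨h1, h2⟩ := hmem w hw
    rcases hk2 _ h2 with h | h
    · exact Or.inl (Subtype.ext (Prod.ext h1 h))
    · exact Or.inr (Subtype.ext (Prod.ext h1 h))
  have hzW2 : zW * zW = 1 := Subtype.ext (Prod.ext (one_mul 1) hzz)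
  have hzWker : σ.ker = Subgroup.zpowers zW := by
    refine le_antisymm (fun w hw => ?_) (Subgroup.zpowers_le.2 rfl)
    rcases hkerW w hw with rfl | rfl
    · exact one_mem _
    · exact Subgroup.mem_zpowers zW
  have hzW1 : zW ≠ 1 := fun h => hz1 (congrArg (fun w : W => w.1.2) h)
  have hcard : Nat.card σ.ker = 2 := by
    rw [hzWker, Nat.card_zpowers]
    exact orderOf_eq_prime (by rw [pow_two, hzW2]) hzW1
  refine ⟨W, inferInstance, inferInstance, σ, ⟨hσ, hcenW, ?_⟩, hcard⟩
  rw [hzWker, Subgroup.zpowers_le]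
  by_contra hz'
  have hker' : ∀ w : W, w ∈ σ.ker → w ∈ commutator W → w = 1 := fun w hw hw' =>
    (hkerW w hw).resolve_right fun h => hz' (h ▸ hw')
  have hmap : (commutator W).map σ = ⊤ := by
    rw [commutator_def, Subgroup.map_commutator, Subgroup.map_top_of_surjective σ hσ, ← commutator_def,
      hperf]
  obtain ⟨w, hw, hwx⟩ := Subgroup.mem_map.1 (hmap ▸ Subgroup.mem_top x : x ∈ (commutator W).map σ)
  have hw2 : w * w = 1 := hker' _ (show σ (w * w) = 1 by rw [map_mul, hwx, hx]) (mul_mem hw hw)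
  let wX : W := ⟨(x, X), hX.symm⟩
  have hd' : w⁻¹ * wX ∈ σ.ker := by
    show σ (w⁻¹ * wX) = 1
    rw [map_mul, map_inv, hwx]
    exact inv_mul_cancel x
  have hwX : wX * wX = 1 := by
    have hc' := Subgroup.mem_center_iff.1 (hcenW hd') w
    have e : wX = w * (w⁻¹ * wX) := by group
    calc wX * wX = (w * (w⁻¹ * wX)) * (w * (w⁻¹ * wX)) := by rw [← e]
      _ = (w * w) * ((w⁻¹ * wX) * (w⁻¹ * wX)) := by
        rw [mul_assoc, ← mul_assoc (w⁻¹ * wX), ← hc']; simp only [mul_assoc]
      _ = 1 := by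
        rw [hw2, one_mul]
        rcases hkerW _ hd' with h | h <;> rw [h]
        · exact one_mul 1
        · exact hzW2
  exact hz1 (hXX.symm.trans (congrArg (fun w : W => w.1.2) hwX))

end Cfsg.Agent.SchurSmall
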