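import Cfsg.Agent.SchurBound.CoresCert

set_option autoImplicit false

/-!
Codes of square matrices over a prime field, one five-bit slot for each entry.
-/

namespace Cfsg.Agent.SchurSmall.PackMat

open Matrix Cfsg.Agent.SchurCert Cfsg.Agent.SchurBound

theorem pack_congr {f g : ℕ → ℕ} : ∀ n, (∀ k < n, f k = g k) → pack f n = pack g n
  | 0, _ => rfl
  | n + 1, h => by
    rw [pack, pack, pack_congr n fun k hk => h k (Nat.lt_succ_of_lt hk), h n (Nat.lt_succ_self n)]

/-- An entry of the product of two codes. -/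
def mulEntry (p d q r k : ℕ) : ℕ :=
  Nat.mod (sumN (fun l => Nat.mul (getC q (Nat.add (Nat.mul d (Nat.div k d)) l))
    (getC r (Nat.add (Nat.mul d l) (Nat.mod k d)))) d) p

/-- The product of two codes. -/
def mulCode (p d q r : ℕ) : ℕ := pack (mulEntry p d q r) (d * d)

variable {p d : ℕ} [NeZero p] {ι : Type*} [Fintype ι] (e : ι ≃ Fin d)

/-- An entry read row by row. -/
def entry (M : Matrix ι ι (ZMod p)) (k : ℕ) : ℕ :=
  if h : k / d < d ∧ k % d < d then (M (e.symm ⟨k / d, h.1⟩) (e.symm ⟨k % d, h.2⟩)).val else 0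

/-- The code of a matrix. -/
def enc (M : Matrix ι ι (ZMod p)) : ℕ := pack (entry e M) (d * d)

theorem entry_at (M : Matrix ι ι (ZMod p)) (i j : Fin d) :
    entry e M (d * i.1 + j.1) = (M (e.symm i) (e.symm j)).val := by
  have hd : 0 < d := i.pos
  have h1 : (d * i.1 + j.1) / d = i.1 := by
    rw [Nat.mul_add_div hd, Nat.div_eq_of_lt j.2, Nat.add_zero]
  have h2 : (d * i.1 + j.1) % d = j.1 := by rw [Nat.mul_add_mod, Nat.mod_eq_of_lt j.2]
  rw [entry, dif_pos ⟨by rw [h1]; exact i.2, by rw [h2]; exact j.2⟩]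
  congr <;> simp [h1, h2]

theorem entry_lt (hp : p ≤ 32) (M : Matrix ι ι (ZMod p)) (k : ℕ) : entry e M k < 32 := by
  rw [entry]
  split
  · exact (ZMod.val_lt _).trans_le hp
  · norm_num

theorem getC_enc (hp : p ≤ 32) (M : Matrix ι ι (ZMod p)) (i j : Fin d) :
    getC (enc e M) (d * i.1 + j.1) = (M (e.symm i) (e.symm j)).val := by
  rw [enc, (pack_spec _ (d * d) fun k _ => entry_lt e hp M k).2 _ (by
    calc d * i.1 + j.1 < d * i.1 + d := Nat.add_lt_add_left j.2 _
      _ = d * (i.1 + 1) := by ring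
      _ ≤ d * d := Nat.mul_le_mul_left _ i.2), entry_at]

theorem enc_mul (hp : p ≤ 32) (M N : Matrix ι ι (ZMod p)) :
    enc e (M * N) = mulCode p d (enc e M) (enc e N) := by
  refine pack_congr (d * d) fun k hk => ?_
  have hd : 0 < d := by
    rcases Nat.eq_zero_or_pos d with rfl | h
    · simp at hk
    · exact h
  obtain ⟨i, hi⟩ : ∃ i : Fin d, i.1 = k / d := ⟨⟨_, Nat.div_lt_of_lt_mul hk⟩, rfl⟩
  obtain ⟨j, hj⟩ : ∃ j : Fin d, j.1 = k % d := ⟨⟨_, Nat.mod_lt _ hd⟩, rfl⟩
  have hk' : k = d * i.1 + j.1 := by rw [hi, hj]; exact (Nat.div_add_mod k d).symm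
  rw [mulEntry, show Nat.div k d = i.1 from hi.symm, show Nat.mod k d = j.1 from hj.symm]
  conv_lhs => rw [hk', entry_at]
  simp only [Nat.mul_eq, Nat.add_eq, show ∀ a b : ℕ, Nat.mod a b = a % b from fun _ _ => rfl]
  rw [← ZMod.val_natCast, sum_sumN, Matrix.mul_apply, ← Equiv.sum_comp e.symm]
  congr 1
  refine Finset.sum_congr rfl fun l _ => ?_
  rw [show getC (enc e M) (d * i.1 + (l : ℕ)) = _ from getC_enc e hp M i l,
    show getC (enc e N) (d * (l : ℕ) + j.1) = _ from getC_enc e hp N l j,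
    Nat.cast_mul, ZMod.natCast_zmod_val, ZMod.natCast_zmod_val]

theorem enc_injective (hp : p ≤ 32) : Function.Injective (enc e : Matrix ι ι (ZMod p) → ℕ) :=
  fun M N h => Matrix.ext fun a b => by
    have h' := (getC_enc e hp M (e a) (e b)).symm.trans (h ▸ getC_enc e hp N (e a) (e b))
    simpa using ZMod.val_injective p h'

/-- The matrix read from a code. -/
def read (c : ℕ) : Matrix ι ι (ZMod p) :=
  Matrix.of fun a b => (getC c (d * (e a).1 + (e b).1) : ZMod p)

end Cfsg.Agent.SchurSmall.PackMat
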