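import Cfsg.Agent.SchurBound.Cores
import Mathlib.Data.Fintype.Card

set_option autoImplicit false

/-!
Cocycles give characters of the Schur multiplier, evaluated on products of commutators.
-/

namespace Cfsg.Agent.SchurSmall

open Subgroup Cfsg.Agent.SchurBound Cfsg.Agent.CentralExt
open scoped commutatorElement

universe v

variable {G : Type v} [Group G]

/-- The element of the multiplier given by a product of commutators equal to one. -/
def commElt (L : List (G × G)) (hL : (L.map fun q => ⁅q.1, q.2⁆).prod = 1) : schurMult G :=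
  ⟨(L.map fun q => ⁅hopfMk G (FreeGroup.of q.1), hopfMk G (FreeGroup.of q.2)⁆).prod, by
    refine Subgroup.mem_inf.2 ⟨?_, list_prod_mem fun x hx => ?_⟩
    · rw [MonoidHom.mem_ker, map_list_prod, List.map_map]
      refine Eq.trans (congrArg List.prod (List.map_congr_left fun q _ => ?_)) hL
      simp [map_commutatorElement, hopfPi_mk]
    · obtain ⟨q, -, rfl⟩ := List.mem_map.1 hx
      exact Subgroup.commutator_mem_commutator (Subgroup.mem_top _) (Subgroup.mem_top _)⟩

/-- A cocycle gives a character of the multiplier. -/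
theorem exists_char {n : ℕ} (F : Cocycle G n) :
    ∃ χ : schurMult G →* Multiplicative (ZMod n), ∀ (L : List (G × G))
      (hL : (L.map fun q => ⁅q.1, q.2⁆).prod = 1),
      χ (commElt L hL) = Multiplicative.ofAdd (commVal F L) := by
  let ψ₀ : FreeGroup G →* CExt F := FreeGroup.lift (CExt.lift F)
  have hproj : ∀ x, CExt.proj (ψ₀ x) = FreeGroup.lift (id : G → G) x := by
    intro x
    rw [← MonoidHom.comp_apply]
    refine DFunLike.congr_fun (FreeGroup.ext_hom _ _ fun g => ?_) x
    simp [ψ₀, CExt.proj, CExt.lift]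
  have hle : ⁅relKer G, (⊤ : Subgroup (FreeGroup G))⁆ ≤ ψ₀.ker := by
    rw [Subgroup.commutator_le]
    intro a ha b _
    rw [MonoidHom.mem_ker, map_commutatorElement, commutatorElement_eq_one_iff_mul_comm]
    have hc : ψ₀ a ∈ center (CExt F) :=
      CExt.ker_proj_le_center (by rw [MonoidHom.mem_ker, hproj]; exact ha)
    exact (Subgroup.mem_center_iff.1 hc (ψ₀ b)).symm
  let ψ : HopfExt G →* CExt F := QuotientGroup.lift _ ψ₀ hle
  have hψ : ∀ x, ψ (hopfMk G x) = ψ₀ x := fun x => rfl
  have hg : ∀ m : schurMult G, (ψ m).g = 1 := by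
    rintro ⟨m, hm⟩
    obtain ⟨x, rfl⟩ := hopfMk_surjective G m
    have h := (Subgroup.mem_inf.1 hm).1
    rw [MonoidHom.mem_ker, hopfPi_mk, ← hproj] at h
    exact h
  let χ : schurMult G →* Multiplicative (ZMod n) :=
    { toFun := fun m => Multiplicative.ofAdd (ψ m).a
      map_one' := by simp
      map_mul' := fun a b => by
        rw [Subgroup.coe_mul, map_mul, CExt.mul_a, hg a, F.one_left, add_zero]
        rfl }
  refine ⟨χ, fun L hL => ?_⟩
  show Multiplicative.ofAdd (ψ (L.map _).prod).a = _
  rw [map_list_prod, List.map_map]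
  have : (⇑ψ ∘ fun q : G × G => ⁅hopfMk G (FreeGroup.of q.1), hopfMk G (FreeGroup.of q.2)⁆) =
      fun q => ⁅CExt.lift F q.1, CExt.lift F q.2⁆ := funext fun q => by
    simp [map_commutatorElement, hψ, ψ₀]
  rw [this, commVal_spec]

/-- A finite group mapped onto one of at least its order is isomorphic to it. -/
theorem equiv_of_surjective {A B : Type*} [Group A] [Group B] [Finite A] (f : A →* B)
    (hf : Function.Surjective f) (hc : Nat.card A ≤ Nat.card B) : Nonempty (A ≃* B) := by
  haveI : Finite B := Finite.of_surjective f hf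
  refine ⟨MulEquiv.ofBijective f ((Nat.bijective_iff_surjective_and_card f).2
    ⟨hf, le_antisymm hc (Nat.card_le_card_of_surjective f hf)⟩)⟩

end Cfsg.Agent.SchurSmall
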