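import Cfsg.Agent.SchurSmall.L34CoresThree

set_option autoImplicit false
set_option maxRecDepth 40000

/-!
The checks of the data for PSL(3, 4) at 3.
-/

namespace Cfsg.Agent.SchurSmall

open Cfsg.Agent.SchurCert Cfsg.Agent.SchurBound

theorem l34CoresThree_reps : l34CoresThreeCert.repsOK permMulD permOne = true := by decide +kernel

theorem l34CoresThree_rank : l34CoresThreeCert.rankOK = true := by decide +kernel

theorem l34CoresThree_keys : l34CoresThreeCert.keysOK (pairKey l34CoresThreePts) = true := by decide +kernel

theorem l34CoresThree_sub : l34CoresThreeCert.subOK permMulD permOne = true := by decide +kernel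

theorem l34CoresThree_tbl : l34CoresThreeCert.tblOK = true := by decide +kernel

theorem l34CoresThree_coc : l34CoresThreeCert.cocOK = true := by decide +kernel

theorem l34CoresThree_checked : Checked l34CoresThreeCert permMulD permOne (pairKey l34CoresThreePts) :=
  ⟨l34CoresThree_reps, l34CoresThree_rank, l34CoresThree_keys, l34CoresThree_sub, l34CoresThree_tbl, l34CoresThree_coc⟩

theorem l34CoresThree_val00 : pairOK l34CoresThreeCert permMulD l34CoresThreePair0 1 = true := by decide +kernel

end Cfsg.Agent.SchurSmall
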