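import Cfsg.Agent.SchurSmall.L34CoresTwo

set_option autoImplicit false
set_option maxRecDepth 40000

/-!
The checks of the data for PSL(3, 4) at 2.
-/

namespace Cfsg.Agent.SchurSmall

open Cfsg.Agent.SchurCert Cfsg.Agent.SchurBound

theorem l34CoresTwo_reps : l34CoresTwoCert.repsOK permMulD permOne = true := by decide +kernel

theorem l34CoresTwo_rank : l34CoresTwoCert.rankOK = true := by decide +kernel

theorem l34CoresTwo_keys : l34CoresTwoCert.keysOK (pairKey l34CoresTwoPts) = true := by decide +kernel

theorem l34CoresTwo_sub : l34CoresTwoCert.subOK permMulD permOne = true := by decide +kernel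

theorem l34CoresTwo_tbl : l34CoresTwoCert.tblOK = true := by decide +kernel

theorem l34CoresTwo_coc : l34CoresTwoCert.cocOK = true := by decide +kernel

theorem l34CoresTwo_checked : Checked l34CoresTwoCert permMulD permOne (pairKey l34CoresTwoPts) :=
  ⟨l34CoresTwo_reps, l34CoresTwo_rank, l34CoresTwo_keys, l34CoresTwo_sub, l34CoresTwo_tbl, l34CoresTwo_coc⟩

theorem l34CoresTwo_coc1 : l34CoresTwoCert1.cocOK = true := by decide +kernel

theorem l34CoresTwo_checked1 : Checked l34CoresTwoCert1 permMulD permOne (pairKey l34CoresTwoPts) :=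
  ⟨l34CoresTwo_reps, l34CoresTwo_rank, l34CoresTwo_keys, l34CoresTwo_sub, l34CoresTwo_tbl, l34CoresTwo_coc1⟩

theorem l34CoresTwo_val00 : pairOK l34CoresTwoCert permMulD l34CoresTwoPair0 1 = true := by decide +kernel

theorem l34CoresTwo_val01 : pairOK l34CoresTwoCert permMulD l34CoresTwoPair1 0 = true := by decide +kernel

theorem l34CoresTwo_val10 : pairOK l34CoresTwoCert1 permMulD l34CoresTwoPair0 0 = true := by decide +kernel

theorem l34CoresTwo_val11 : pairOK l34CoresTwoCert1 permMulD l34CoresTwoPair1 1 = true := by decide +kernel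

end Cfsg.Agent.SchurSmall
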