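import Cfsg.Agent.SchurSmall.Rank
import Cfsg.Agent.SchurSmall.Chars
import Cfsg.Agent.SchurSmall.L34Bounds
import Cfsg.Agent.SchurSmall.L34CoresTwoCheck
import Cfsg.Agent.SchurSmall.L34CoresThreeCheck
import Cfsg.Agent.SchurCert.Trivial

set_option autoImplicit false
set_option maxRecDepth 20000
set_option maxHeartbeats 800000
set_option linter.style.haveILetI false

/-!
The Schur multiplier of the stabiliser of three points in M24.
-/

namespace Cfsg.Agent.SchurSmall

open Cfsg Cfsg.Agent.Golay Cfsg.Agent.SchurCert Cfsg.Agent.SchurBound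
open scoped commutatorElement

/-- All codes used. -/
def l34All : List (ℕ × ℕ) :=
  l34TwoExpGens ++ l34TwoExpFus ++ l34TwoRankGens ++ l34TwoRankFus ++ l34ThreeExpGens ++
    l34ThreeExpFus ++ l34ThreeRankGens ++ l34ThreeRankFus ++ l34CoresTwoGens ++ l34CoresThreeGens

theorem l34All_tested : l34All.all validPair = true ∧
    ∀ x ∈ l34All, PreservesRows (codeFun x.1) ∧ ∀ j < 3, codeFun x.1 (basePt j) = basePt j := by
  decide +kernel

/-- The stabiliser of three points. -/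
abbrev G34 : Subgroup (Equiv.Perm GolayPt) := chainStab M24 3

theorem card_G34 : Nat.card G34 = 20160 := (card_chainStab gen3_le le_rfl).2.2.2.1

theorem l34_enc (L : List (ℕ × ℕ)) (hL : ∀ x ∈ L, x ∈ l34All) (i : ℕ) :
    (permCode G34).enc (elemAt G34 L i) = (L.map Prod.fst).getD i permOne :=
  enc_elemAt (List.all_eq_true.2 fun x hx => List.all_eq_true.1 l34All_tested.1 x (hL x hx))
    (fun x hx => by
      have hv := List.all_eq_true.1 l34All_tested.1 x (hL x hx)
      have h := l34All_tested.2 x (hL x hx)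
      exact mem_chainStab.2 ⟨permOfPair_mem_M24 hv h.1, fun j hj =>
        (permOfPair_apply hv _).trans (h.2 j hj)⟩) i

theorem applies34 (B : BCert) (p N m : ℕ) (gl fl : List (ℕ × ℕ)) (hg : B.D.gens = gl.map Prod.fst)
    (hf : B.D.gs = fl.map Prod.fst) (hgm : ∀ x ∈ gl, x ∈ l34All) (hfm : ∀ x ∈ fl, x ∈ l34All)
    (hp : p.Prime) (hP : B.D.P.p = p) (hn : B.D.P.p ^ B.D.P.n = N) (hm : 20160 = N * m)
    (hpm : ¬ p ∣ m) (hchk : B.check permMul permOne = true) :
    Applies (permCode G34) B p (elemAt G34 gl) (elemAt G34 fl) := by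
  have hgen : ∀ i < B.D.P.n, (permCode G34).enc (elemAt G34 gl i) =
      B.D.gens.getD i (permCode G34).one := fun i _ => hg ▸ l34_enc gl hgm i
  have hc := hchk
  simp only [BCert.check, Bool.and_eq_true] at hc
  obtain ⟨-, hcard⟩ := card_initGroup_of_groupOK (permCode G34) B.D (hP.symm ▸ hp) _ hgen
    hc.1.1.1 hc.1.1.2
  refine ⟨hp, hP, hgen, fun i => hf ▸ l34_enc fl hfm i, ?_, hchk⟩
  rwa [index_initGroup card_G34 (hcard.trans hn) hm]

theorem card_schurMult_le : Nat.card (CentralExt.schurMult G34) ≤ 48 := by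
  have hpos : Nat.card (CentralExt.schurMult G34) ≠ 0 := Nat.card_pos.ne'
  refine Nat.le_of_dvd (by norm_num) ?_
  rw [← Nat.factorization_le_iff_dvd hpos (by norm_num)]
  intro p
  by_cases hp : p.Prime
  swap
  · simp [Nat.factorization_eq_zero_of_not_prime _ hp]
  rcases eq_or_ne p 2 with rfl | h2
  · refine (SchurSmall.factorization_schurMult_le (permCode G34) (k := 2) (r := 2)
      (applies34 l34TwoRankCert 2 64 315 l34TwoRankGens l34TwoRankFus rfl rfl
        (fun x hx => by simp [l34All, hx]) (fun x hx => by simp [l34All, hx]) Nat.prime_two rfl rfl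
        (by norm_num) (by norm_num) l34TwoRank_check)
      (applies34 l34TwoExpCert 2 64 315 l34TwoExpGens l34TwoExpFus rfl rfl
        (fun x hx => by simp [l34All, hx]) (fun x hx => by simp [l34All, hx]) Nat.prime_two rfl rfl
        (by norm_num) (by norm_num) l34TwoExp_check)
      rfl rfl le_rfl rfl rfl rfl).trans ?_
    exact (Nat.prime_two.pow_dvd_iff_le_factorization (by norm_num)).1 (by norm_num)
  rcases eq_or_ne p 3 with rfl | h3
  · refine (SchurSmall.factorization_schurMult_le (permCode G34) (k := 1) (r := 1)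
      (applies34 l34ThreeRankCert 3 9 2240 l34ThreeRankGens l34ThreeRankFus rfl rfl
        (fun x hx => by simp [l34All, hx]) (fun x hx => by simp [l34All, hx]) Nat.prime_three rfl rfl
        (by norm_num) (by norm_num) l34ThreeRank_check)
      (applies34 l34ThreeExpCert 3 9 2240 l34ThreeExpGens l34ThreeExpFus rfl rfl
        (fun x hx => by simp [l34All, hx]) (fun x hx => by simp [l34All, hx]) Nat.prime_three rfl rfl
        (by norm_num) (by norm_num) l34ThreeExp_check)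
      rfl rfl le_rfl rfl rfl rfl).trans ?_
    exact (Nat.prime_three.pow_dvd_iff_le_factorization (by norm_num)).1 (by norm_num)
  haveI : Fact p.Prime := ⟨hp⟩
  rw [Nat.factorization_eq_zero_of_not_dvd (not_dvd_schurMult_of_sq_not_dvd p fun hsq => ?_)]
  · exact Nat.zero_le _
  rw [card_G34] at hsq
  have hle : p ^ 2 ≤ 20160 := Nat.le_of_dvd (by norm_num) hsq
  have hlt : p < 142 := by nlinarith
  have key : ∀ q < 142, q ^ 2 ∣ 20160 → q % 2 = 0 ∨ q % 3 = 0 ∨ q = 1 := by decide +kernel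
  rcases key p hlt hsq with h | h | h
  · exact h2 ((Nat.prime_dvd_prime_iff_eq Nat.prime_two hp).1 (Nat.dvd_of_mod_eq_zero h)).symm
  · exact h3 ((Nat.prime_dvd_prime_iff_eq Nat.prime_three hp).1 (Nat.dvd_of_mod_eq_zero h)).symm
  · exact hp.ne_one h

theorem l34CoresTwo_pts : (∀ p ∈ l34CoresTwoPts, p.1 < 24 ∧ p.2 < 24) ∧
    ∀ k < 64, (l34CoresTwoPts.map fun p =>
      (getC (l34CoresTwoCert.Uc k) p.1, getC (l34CoresTwoCert.Uc k) p.2)).Perm l34CoresTwoPts := by
  decide +kernel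

theorem l34CoresThree_pts : (∀ p ∈ l34CoresThreePts, p.1 < 24 ∧ p.2 < 24) ∧
    ∀ k < 9, (l34CoresThreePts.map fun p =>
      (getC (l34CoresThreeCert.Uc k) p.1, getC (l34CoresThreeCert.Uc k) p.2)).Perm l34CoresThreePts := by
  decide +kernel

theorem exists_cocycle34 (D : LCert) (n : ℕ) (hn : D.n = n) [NeZero n] (pts : List (ℕ × ℕ)) (gl : List (ℕ × ℕ))
    (hg : D.gens = gl.map Prod.fst) (hgm : ∀ x ∈ gl, x ∈ l34All)
    (hpts : (∀ p ∈ pts, p.1 < 24 ∧ p.2 < 24) ∧ ∀ k < D.N, (pts.map fun p =>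
      (getC (D.Uc k) p.1, getC (D.Uc k) p.2)).Perm pts)
    (hcard : 20160 = D.m * D.N) (hchk : Checked D permMulD permOne (pairKey pts)) :
    ∃ F : Cocycle G34 n, ∀ (P : Pair) (v : ℕ), pairOK D permMulD P v = true →
      ∃ X Y : G34, ⁅X, Y⁆ = 1 ∧ (permCodeD G34).enc X = D.Uc P.x ∧
        (permCodeD G34).enc Y = D.Uc P.y ∧ commVal F [(X, Y)] = (v : ZMod n) := by
  subst hn
  exact exists_cocycle (permCodeD G34) D (pairKey pts)
    (fun g k hk => by
      show pairKey pts (permMulD _ _) = _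
      rw [permMulD_eq]
      exact pairKey_mul _ _ _ hpts.1 (hpts.2 k hk))
    (fun i _ => ⟨elemAt G34 gl i, by
      have e : ∀ g : G34, (permCodeD G34).enc g = (permCode G34).enc g := fun g => rfl
      have e1 : (permCodeD G34).one = permOne := rfl
      rw [e, e1, hg, l34_enc gl hgm i]⟩)
    (card_G34.trans hcard) hchk

theorem commElt_cast {X Y X' Y' : G34} (hX : X = X') (hY : Y = Y')
    (h : ([(X, Y)].map fun q => ⁅q.1, q.2⁆).prod = 1)
    (h' : ([(X', Y')].map fun q => ⁅q.1, q.2⁆).prod = 1) :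
    commElt [(X, Y)] h = commElt [(X', Y')] h' := by
  subst hX; subst hY; rfl

theorem hasSchurMultiplier_G34 :
    Cfsg.HasSchurMultiplier G34 (Multiplicative (ZMod 3 × ZMod 4 × ZMod 4)) := by
  have hm : ∀ x ∈ l34CoresTwoGens, x ∈ l34All := fun x hx => by simp [l34All, hx]
  obtain ⟨F₀, h₀⟩ := exists_cocycle34 l34CoresTwoCert 4 rfl l34CoresTwoPts l34CoresTwoGens rfl hm
    l34CoresTwo_pts rfl l34CoresTwo_checked
  obtain ⟨F₁, h₁⟩ := exists_cocycle34 l34CoresTwoCert1 4 rfl l34CoresTwoPts l34CoresTwoGens rfl hm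
    l34CoresTwo_pts rfl l34CoresTwo_checked1
  obtain ⟨F₂, h₂⟩ := exists_cocycle34 l34CoresThreeCert 3 rfl l34CoresThreePts l34CoresThreeGens rfl
    (fun x hx => by simp [l34All, hx]) l34CoresThree_pts rfl l34CoresThree_checked
  obtain ⟨χ₀, c₀⟩ := exists_char F₀
  obtain ⟨χ₁, c₁⟩ := exists_char F₁
  obtain ⟨χ₂, c₂⟩ := exists_char F₂
  obtain ⟨A, B, hAB, eA, eB, vA⟩ := h₀ _ _ l34CoresTwo_val00
  obtain ⟨A', B', hAB', eA', eB', vA'⟩ := h₁ _ _ l34CoresTwo_val10
  obtain ⟨C, D, hCD, eC, eD, vC⟩ := h₀ _ _ l34CoresTwo_val01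
  obtain ⟨C', D', hCD', eC', eD', vC'⟩ := h₁ _ _ l34CoresTwo_val11
  obtain ⟨E, F, hEF, -, -, vE⟩ := h₂ _ _ l34CoresThree_val00
  obtain rfl : A' = A := (permCodeD G34).enc_inj (eA'.trans eA.symm)
  obtain rfl : B' = B := (permCodeD G34).enc_inj (eB'.trans eB.symm)
  obtain rfl : C' = C := (permCodeD G34).enc_inj (eC'.trans eC.symm)
  obtain rfl : D' = D := (permCodeD G34).enc_inj (eD'.trans eD.symm)
  have p₁ : ([(A', B')].map fun q => ⁅q.1, q.2⁆).prod = 1 := by simpa using hAB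
  have p₂ : ([(C', D')].map fun q => ⁅q.1, q.2⁆).prod = 1 := by simpa using hCD
  have p₃ : ([(E, F)].map fun q => ⁅q.1, q.2⁆).prod = 1 := by simpa using hEF
  let f : CentralExt.schurMult G34 →* Multiplicative (ZMod 3 × ZMod 4 × ZMod 4) :=
    { toFun := fun m => Multiplicative.ofAdd
        ((χ₂ m).toAdd, ((χ₀ m).toAdd : ZMod 4), ((χ₁ m).toAdd : ZMod 4))
      map_one' := by simp only [map_one]; rfl
      map_mul' := fun a b => by simp only [map_mul]; rfl }
  have e₁ : f (commElt _ p₁ ^ 9) = Multiplicative.ofAdd ((0 : ZMod 3), (1 : ZMod 4), (0 : ZMod 4)) := by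
    show Multiplicative.ofAdd ((χ₂ (_ ^ 9)).toAdd, (χ₀ (_ ^ 9)).toAdd, (χ₁ (_ ^ 9)).toAdd) = _
    simp only [map_pow, c₀, c₁, toAdd_pow, toAdd_ofAdd]
    rw [show ∀ a : ZMod 3, (9 : ℕ) • a = 0 from by decide, vA, vA']
    rfl
  have e₂ : f (commElt _ p₂ ^ 9) = Multiplicative.ofAdd ((0 : ZMod 3), (0 : ZMod 4), (1 : ZMod 4)) := by
    show Multiplicative.ofAdd ((χ₂ (_ ^ 9)).toAdd, (χ₀ (_ ^ 9)).toAdd, (χ₁ (_ ^ 9)).toAdd) = _
    simp only [map_pow, c₀, c₁, toAdd_pow, toAdd_ofAdd]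
    rw [show ∀ a : ZMod 3, (9 : ℕ) • a = 0 from by decide, vC, vC']
    rfl
  have e₃ : f (commElt _ p₃ ^ 16) = Multiplicative.ofAdd ((1 : ZMod 3), (0 : ZMod 4), (0 : ZMod 4)) := by
    show Multiplicative.ofAdd ((χ₂ (_ ^ 16)).toAdd,
      ((χ₀ (_ ^ 16)).toAdd : ZMod 4), ((χ₁ (_ ^ 16)).toAdd : ZMod 4)) = _
    simp only [map_pow, c₂, toAdd_pow, toAdd_ofAdd]
    have h16 : ∀ a : ZMod 4, (16 : ℕ) • a = 0 := by decide
    rw [vE]
    exact congrArg Multiplicative.ofAdd (Prod.ext rfl (Prod.ext (h16 _) (h16 _)))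
  have hf : Function.Surjective f := by
    intro y
    obtain ⟨⟨a, b, c⟩, rfl⟩ := Multiplicative.ofAdd.surjective y
    refine ⟨(commElt _ p₃ ^ 16) ^ a.val * ((commElt _ p₁ ^ 9) ^ b.val * (commElt _ p₂ ^ 9) ^ c.val), ?_⟩
    rw [map_mul, map_mul, map_pow f _ a.val, map_pow f _ b.val, map_pow f _ c.val, e₁, e₂, e₃]
    apply Multiplicative.toAdd.injective
    simp only [toAdd_mul, toAdd_pow, toAdd_ofAdd, Prod.smul_mk, smul_zero, nsmul_one,
      ZMod.natCast_zmod_val, Prod.mk_add_mk, add_zero, zero_add]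
  obtain ⟨e⟩ := equiv_of_surjective f hf (by
    rw [Nat.card_congr Multiplicative.toAdd, Nat.card_prod, Nat.card_prod, Nat.card_zmod, Nat.card_zmod]
    exact card_schurMult_le)
  exact CentralExt.hasSchurMultiplier_iff.2 ⟨e.symm⟩

end Cfsg.Agent.SchurSmall
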