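import Cfsg.Agent.SporB.DoubleCoverAlt
import Cfsg.Agent.AltCoverComm.Main
import Cfsg.Prelude.Def_KGroupFacts

set_option autoImplicit false
set_option linter.style.haveILetI false

/-!
A perfect permutation group with an involution made of six transpositions has a double cover,
pulled back from that of the alternating group.
-/

namespace Cfsg.Agent.SchurSmall

open Equiv Equiv.Perm
open scoped commutatorElement

theorem swap_prod_conj {α : Type*} [DecidableEq α] {a b c d : α} (hac : a ≠ c) (had : a ≠ d)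
    (hab : a ≠ b) (hbc : b ≠ c) (hbd : b ≠ d) (hcd : c ≠ d) :
    (swap a b * swap c d) * (swap a c * swap b d) = swap a d * swap c b := by
  ext x
  simp only [Perm.mul_apply, swap_apply_def]
  split_ifs <;> simp_all

theorem sq_lift_double {W : Type*} [Group W] {m : ℕ} (hm : 3 ≤ m)
    (π : W →* Perm (Fin (m + 1))) (hr : π.range = alternatingGroup (Fin (m + 1)))
    (hc : π.ker ≤ Subgroup.center W) (hd : π.ker ≤ commutator W) (hu2 : ∀ u ∈ π.ker, u * u = 1)
    (hne : π.ker ≠ ⊥) {a b c d : Fin (m + 1)} (hab : a ≠ b) (hac : a ≠ c) (had : a ≠ d)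
    (hbc : b ≠ c) (hbd : b ≠ d) (hcd : c ≠ d) {X : W} (hX : π X = swap a b * swap c d) :
    X * X ∈ π.ker ∧ X * X ≠ 1 := by
  have hab2 : π (X * X) = 1 := by
    rw [map_mul, hX]
    ext x
    simp only [Perm.mul_apply, swap_apply_def, Perm.one_apply]
    split_ifs <;> simp_all
  refine ⟨hab2, fun h1 => ?_⟩
  have hsgn : Perm.sign (swap b c * swap c d : Perm (Fin (m + 1))) = 1 := by
    rw [map_mul, sign_swap hbc, sign_swap hcd]; rfl
  obtain ⟨R, hR⟩ := AltCoverComm.exists_lift π hr hsgn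
  have hsq : ∀ Z Z' : W, π Z = π Z' → Z * Z = 1 → Z' * Z' = 1 := fun Z Z' h hZ => by
    have hu : Z⁻¹ * Z' ∈ π.ker := by rw [MonoidHom.mem_ker, map_mul, map_inv, h, inv_mul_cancel]
    have e : Z' = Z * (Z⁻¹ * Z') := by group
    calc Z' * Z' = (Z * (Z⁻¹ * Z')) * (Z * (Z⁻¹ * Z')) := by rw [← e]
      _ = (Z * Z) * ((Z⁻¹ * Z') * (Z⁻¹ * Z')) := by
        have hcz := Subgroup.mem_center_iff.1 (hc hu) Z
        rw [mul_assoc, ← mul_assoc (Z⁻¹ * Z'), ← hcz]; simp only [mul_assoc]
      _ = 1 := by rw [hZ, hu2 _ hu, mul_one]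
  have hconj : ∀ Z : W, Z * Z = 1 → R * Z * R⁻¹ * (R * Z * R⁻¹) = 1 := fun Z hZ => by
    calc R * Z * R⁻¹ * (R * Z * R⁻¹) = R * (Z * Z) * R⁻¹ := by group
      _ = 1 := by rw [hZ]; group
  have hbR : (swap b c * swap c d : Perm (Fin (m + 1))) a = a := by
    simp [swap_apply_def, hab, hac, had]
  have hbb : (swap b c * swap c d : Perm (Fin (m + 1))) b = c := by simp [swap_apply_def, hbc, hbd]
  have hcc : (swap b c * swap c d : Perm (Fin (m + 1))) c = d := by
    simp [swap_apply_def, hbd.symm, hcd.symm]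
  have hdd : (swap b c * swap c d : Perm (Fin (m + 1))) d = b := by simp [swap_apply_def, hcd.symm]
  have hconjπ : ∀ p q r s : Fin (m + 1), ∀ Z : W, π Z = swap p q * swap r s →
      π (R * Z * R⁻¹) = swap ((swap b c * swap c d : Perm (Fin (m + 1))) p)
        ((swap b c * swap c d : Perm (Fin (m + 1))) q) *
        swap ((swap b c * swap c d : Perm (Fin (m + 1))) r)
          ((swap b c * swap c d : Perm (Fin (m + 1))) s) := fun p q r s Z hZ => by
    rw [map_mul, map_mul, map_inv, hR, hZ, ← AltCoverComm.conj_swap, ← AltCoverComm.conj_swap]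
    group
  set Y := R * X * R⁻¹ with hYdef
  have hY : π Y = swap a c * swap b d := by
    rw [hYdef, hconjπ a b c d X hX, hbR, hbb, hcc, hdd, swap_comm d b]
  have hY2 := hconj X h1
  have hXY : π (R * Y * R⁻¹) = π (X * Y) := by
    rw [hconjπ a c b d Y hY, hbR, hbb, hcc, hdd, map_mul π X Y, hX, hY,
      swap_prod_conj hac had hab hbc hbd hcd]
  have hXY2 := hsq _ _ hXY (hconj Y hY2)
  apply AltCoverComm.pair_not_commute π hr hc hm hd hu2 hne hab hac had hbc hbd hcd hX hY
  show X * Y = Y * X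
  calc X * Y = (X * Y)⁻¹ := (inv_eq_of_mul_eq_one_right hXY2).symm
    _ = Y⁻¹ * X⁻¹ := mul_inv_rev X Y
    _ = Y * X := by rw [inv_eq_of_mul_eq_one_right hY2, inv_eq_of_mul_eq_one_right h1]

theorem exists_stem_two_of_perm {G : Type} [Group G] [Finite G] (hperf : commutator G = ⊤) {m : ℕ}
    (ψ : G →* Perm (Fin (m + 1))) (x : G) (hx : x * x = 1) (l : Fin 12 → Fin (m + 1))
    (hl : Function.Injective l)
    (hψ : ψ x = swap (l 0) (l 1) * swap (l 2) (l 3) * (swap (l 4) (l 5) * swap (l 6) (l 7)) *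
      (swap (l 8) (l 9) * swap (l 10) (l 11))) :
    ∃ (W : Type) (_ : Group W) (_ : Finite W) (σ : W →* G),
      Cfsg.IsStemExtension σ ∧ Nat.card σ.ker = 2 := by
  have hm : 11 ≤ m := by
    have := Fintype.card_le_of_injective l hl
    simp only [Fintype.card_fin] at this
    omega
  obtain ⟨H, _, _, z, π₀, hz, hzc, hsurj, hker, hcen, ⟨u, v, -, -, huv⟩, -⟩ :=
    SporB.DoubleCover.exists_cover (m + 1) (by omega)
  let π : H →* Perm (Fin (m + 1)) := (alternatingGroup (Fin (m + 1))).subtype.comp π₀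
  have hkπ : π.ker = Subgroup.zpowers z := by
    rw [← hker]; exact MonoidHom.ker_comp_of_injective π₀ _ (Subgroup.subtype_injective _)
  have hr : π.range = alternatingGroup (Fin (m + 1)) := by
    rw [MonoidHom.range_comp, MonoidHom.range_eq_top.2 hsurj, ← MonoidHom.range_eq_map,
      Subgroup.range_subtype]
  have hzz : z * z = 1 := by rw [← pow_two, ← hz, pow_orderOf_eq_one]
  have hz1 : z ≠ 1 := fun h => by rw [h, orderOf_one] at hz; omega
  have hk2 : ∀ w ∈ π.ker, w = 1 ∨ w = z := by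
    intro w hw
    rw [hkπ] at hw
    obtain ⟨k, rfl⟩ := Subgroup.mem_zpowers_iff.1 hw
    rw [← zpow_mod_orderOf, hz]
    rcases Int.emod_two_eq_zero_or_one k with h | h <;> simp [h]
  have hc : π.ker ≤ Subgroup.center H := hkπ ▸ Subgroup.zpowers_le.2 hzc
  have hd : π.ker ≤ commutator H := by
    rw [hkπ, Subgroup.zpowers_le]
    have e : z = ⁅u, v⁆ := by rw [commutatorElement_def, huv]; group
    rw [e]
    exact Subgroup.commutator_mem_commutator (Subgroup.mem_top u) (Subgroup.mem_top v)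
  have hu2 : ∀ w ∈ π.ker, w * w = 1 := fun w hw => by
    rcases hk2 w hw with rfl | rfl
    · exact one_mul 1
    · exact hzz
  have hne : π.ker ≠ ⊥ := by rw [hkπ, Ne, Subgroup.zpowers_eq_bot]; exact hz1
  have hs : ∀ a b c d : Fin 12, a ≠ b → c ≠ d →
      Perm.sign (swap (l a) (l b) * swap (l c) (l d)) = 1 := fun a b c d h1 h2 => by
    rw [map_mul, sign_swap (hl.ne h1), sign_swap (hl.ne h2)]; rfl
  obtain ⟨X₁, h₁⟩ := AltCoverComm.exists_lift π hr (hs 0 1 2 3 (by decide) (by decide))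
  obtain ⟨X₂, h₂⟩ := AltCoverComm.exists_lift π hr (hs 4 5 6 7 (by decide) (by decide))
  obtain ⟨X₃, h₃⟩ := AltCoverComm.exists_lift π hr (hs 8 9 10 11 (by decide) (by decide))
  have hsq : ∀ (a b c d : Fin 12) (X : H), a ≠ b → a ≠ c → a ≠ d → b ≠ c → b ≠ d → c ≠ d →
      π X = swap (l a) (l b) * swap (l c) (l d) → X * X = z := fun a b c d X h1 h2 h3 h4 h5 h6 hX => by
    obtain ⟨hk, hn⟩ := sq_lift_double (by omega) π hr hc hd hu2 hne (hl.ne h1) (hl.ne h2) (hl.ne h3)
      (hl.ne h4) (hl.ne h5) (hl.ne h6) hX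
    exact (hk2 _ hk).resolve_left hn
  have hcomm : ∀ (a b c d e f g k : Fin 12) (X Y : H), a ≠ b → c ≠ d → e ≠ f → g ≠ k →
      (∀ i ∈ ({a, b, c, d} : Finset (Fin 12)), i ∉ ({e, f, g, k} : Finset (Fin 12))) →
      π X = swap (l a) (l b) * swap (l c) (l d) → π Y = swap (l e) (l f) * swap (l g) (l k) →
      Commute X Y := by
    intro a b c d e f g k X Y h1 h2 h3 h4 hdisj hX hY
    have hfix : ∀ i ∈ ({a, b, c, d} : Finset (Fin 12)),
        (swap (l e) (l f) * swap (l g) (l k) : Perm (Fin (m + 1))) (l i) = l i := fun i hi => by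
      have := hdisj i hi
      simp only [Finset.mem_insert, Finset.mem_singleton, not_or] at this
      rw [Perm.mul_apply, swap_apply_of_ne_of_ne (hl.ne this.2.2.1) (hl.ne this.2.2.2),
        swap_apply_of_ne_of_ne (hl.ne this.1) (hl.ne this.2.1)]
    exact AltCoverComm.disjoint_commute π hr hc hu2 (hfix a (by simp)) (hfix c (by simp))
      (hfix b (by simp)) (hfix d (by simp)) (hs e f g k h3 h4) hX hY
  have e₁ := hsq 0 1 2 3 X₁ (by decide) (by decide) (by decide) (by decide) (by decide) (by decide) h₁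
  have e₂ := hsq 4 5 6 7 X₂ (by decide) (by decide) (by decide) (by decide) (by decide) (by decide) h₂
  have e₃ := hsq 8 9 10 11 X₃ (by decide) (by decide) (by decide) (by decide) (by decide) (by decide) h₃
  have c₁₂ := hcomm 0 1 2 3 4 5 6 7 X₁ X₂ (by decide) (by decide) (by decide) (by decide) (by decide) h₁ h₂
  have c₁₃ := hcomm 0 1 2 3 8 9 10 11 X₁ X₃ (by decide) (by decide) (by decide) (by decide) (by decide) h₁ h₃
  have c₂₃ := hcomm 4 5 6 7 8 9 10 11 X₂ X₃ (by decide) (by decide) (by decide) (by decide) (by decide) h₂ h₃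
  set X := X₁ * X₂ * X₃ with hXdef
  have hX : π X = ψ x := by rw [hψ, hXdef, map_mul, map_mul, h₁, h₂, h₃]
  have hXX : X * X = z := by
    rw [hXdef, ← pow_two, (c₁₃.mul_left c₂₃).mul_pow, c₁₂.mul_pow, pow_two, pow_two, pow_two, e₁,
      e₂, e₃, hzz, one_mul]
  -- the pullback
  have hrange : ∀ g : G, ψ g ∈ π.range := fun g => by
    rw [hr, Perm.mem_alternatingGroup]
    have h : g ∈ (Perm.sign.comp ψ).ker := by
      have : commutator G ≤ (Perm.sign.comp ψ).ker :=
        Abelianization.commutator_subset_ker _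
      exact this (hperf ▸ Subgroup.mem_top g)
    exact h
  let W : Subgroup (G × H) := MonoidHom.eqLocus (ψ.comp (MonoidHom.fst G H)) (π.comp (MonoidHom.snd G H))
  let σ : W →* G := (MonoidHom.fst G H).comp W.subtype
  have hσ : Function.Surjective σ := fun g => by
    obtain ⟨h, hh⟩ := hrange g
    exact ⟨⟨(g, h), hh.symm⟩, rfl⟩
  have hmem : ∀ w : W, w ∈ σ.ker → (w.1.1 = 1 ∧ w.1.2 ∈ π.ker) := fun w hw => by
    have h1 : w.1.1 = 1 := hw
    refine ⟨h1, ?_⟩
    have h2 : ψ w.1.1 = π w.1.2 := w.2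
    rw [h1, map_one] at h2
    exact h2.symm
  have hcenW : σ.ker ≤ Subgroup.center W := fun w hw => by
    obtain ⟨h1, h2⟩ := hmem w hw
    refine Subgroup.mem_center_iff.2 fun y => Subtype.ext (Prod.ext ?_ ?_)
    · show y.1.1 * w.1.1 = w.1.1 * y.1.1
      rw [h1, mul_one, one_mul]
    · exact Subgroup.mem_center_iff.1 (hc h2) y.1.2
  let zW : W := ⟨(1, z), by
    show ψ 1 = π z
    rw [map_one, (show π z = 1 from (hkπ ▸ Subgroup.mem_zpowers z : z ∈ π.ker))]⟩
  have hkerW : ∀ w : W, w ∈ σ.ker → w = 1 ∨ w = zW := fun w hw => by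
    obtain ⟨h1, h2⟩ := hmem w hw
    rcases hk2 _ h2 with h | h
    · exact Or.inl (Subtype.ext (Prod.ext h1 h))
    · exact Or.inr (Subtype.ext (Prod.ext h1 h))
  have hzW2 : zW * zW = 1 := Subtype.ext (Prod.ext (one_mul 1) hzz)
  have hzWker : σ.ker = Subgroup.zpowers zW := by
    refine le_antisymm (fun w hw => ?_) (Subgroup.zpowers_le.2 rfl)
    rcases hkerW w hw with rfl | rfl
    · exact one_mem _
    · exact Subgroup.mem_zpowers zW
  have hzW1 : zW ≠ 1 := fun h => hz1 (congrArg (fun w : W => w.1.2) h)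
  have hcard : Nat.card σ.ker = 2 := by
    rw [hzWker, Nat.card_zpowers]
    exact orderOf_eq_prime (by rw [pow_two, hzW2]) hzW1
  refine ⟨W, inferInstance, inferInstance, σ, ⟨hσ, hcenW, ?_⟩, hcard⟩
  rw [hzWker, Subgroup.zpowers_le]
  by_contra hz'
  have hker' : ∀ w : W, w ∈ σ.ker → w ∈ commutator W → w = 1 := fun w hw hw' =>
    (hkerW w hw).resolve_right fun h => hz' (h ▸ hw')
  have hmap : (commutator W).map σ = ⊤ := by
    rw [commutator_def, Subgroup.map_commutator, Subgroup.map_top_of_surjective σ hσ, ← commutator_def,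
      hperf]
  obtain ⟨w, hw, hwx⟩ := Subgroup.mem_map.1 (hmap ▸ Subgroup.mem_top x : x ∈ (commutator W).map σ)
  have hw2 : w * w = 1 := hker' _ (show σ (w * w) = 1 by rw [map_mul, hwx, hx]) (mul_mem hw hw)
  let wX : W := ⟨(x, X), hX.symm⟩
  have hd' : w⁻¹ * wX ∈ σ.ker := by
    show σ (w⁻¹ * wX) = 1
    rw [map_mul, map_inv, hwx]
    exact inv_mul_cancel x
  have hwX : wX * wX = 1 := by
    have hc' := Subgroup.mem_center_iff.1 (hcenW hd') w
    have e : wX = w * (w⁻¹ * wX) := by group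
    calc wX * wX = (w * (w⁻¹ * wX)) * (w * (w⁻¹ * wX)) := by rw [← e]
      _ = (w * w) * ((w⁻¹ * wX) * (w⁻¹ * wX)) := by
        rw [mul_assoc, ← mul_assoc (w⁻¹ * wX), ← hc']; simp only [mul_assoc]
      _ = 1 := by
        rw [hw2, one_mul]
        rcases hkerW _ hd' with h | h <;> rw [h]
        · exact one_mul 1
        · exact hzW2
  exact hz1 (hXX.symm.trans (congrArg (fun w : W => w.1.2) hwX))

end Cfsg.Agent.SchurSmall
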