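import Cfsg.Agent.SchurSmall.Rank
import Cfsg.Agent.SchurSmall.PackMat
import Cfsg.Agent.SchurSmall.Sp6Data
import Cfsg.Agent.SchurSmall.AltPullback
import Cfsg.Agent.SchurCert.Trivial
import Cfsg.Agent.S0245
import Cfsg.Agent.S0246
import Cfsg.Agent.S0269
import Cfsg.Prelude.Def_Classical
import Mathlib.FieldTheory.Finite.GaloisField

set_option autoImplicit false
set_option maxRecDepth 20000
set_option maxHeartbeats 800000
set_option linter.style.haveILetI false

/-!
The Schur multiplier of Sp(6, 2).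
-/

namespace Cfsg.Agent.SchurSmall

open Cfsg Matrix Cfsg.Agent.SchurCert Cfsg.Agent.SchurBound

/-- The index type. -/
abbrev SpIdx := Fin 3 ⊕ Fin 3

/-- The group. -/
abbrev Sp6 := Matrix.symplecticGroup (Fin 3) (ZMod 2)

/-- The numbering of the coordinates. -/
def spNum : SpIdx ≃ Fin 6 := finSumFinEquiv

theorem card_Sp6 : Nat.card Sp6 = 1451520 := by
  haveI : Fact (Nat.Prime 2) := ⟨Nat.prime_two⟩
  rw [Cfsg.Agent.S0245.result (ZMod.card 2) 3]
  simp [Finset.prod_range_succ]

theorem perfect_Sp6 : commutator Sp6 = ⊤ := by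
  haveI : Fact (Nat.Prime 2) := ⟨Nat.prime_two⟩
  exact Cfsg.Agent.S0269.result 3 (Or.inl le_rfl)

/-- The code of the identity. -/
def sp6One : ℕ := PackMat.enc spNum (1 : Matrix SpIdx SpIdx (ZMod 2))

/-- Codes of elements. -/
def sp6Code : Code Sp6 where
  mul := PackMat.mulCode 2 6
  one := sp6One
  enc g := PackMat.enc spNum (g : Matrix SpIdx SpIdx (ZMod 2))
  enc_one := rfl
  enc_mul a b := PackMat.enc_mul spNum (by norm_num) _ _
  enc_inj a b h := Subtype.ext (PackMat.enc_injective spNum (by norm_num) h)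

/-- A code of a symplectic matrix. -/
def sp6Valid (c : ℕ) : Bool :=
  decide ((PackMat.read spNum c : Matrix SpIdx SpIdx (ZMod 2)) * Matrix.J (Fin 3) (ZMod 2) *
      (PackMat.read spNum c : Matrix SpIdx SpIdx (ZMod 2))ᵀ = Matrix.J (Fin 3) (ZMod 2)) &&
    Nat.beq (PackMat.enc spNum (PackMat.read spNum c : Matrix SpIdx SpIdx (ZMod 2))) c

theorem exists_of_sp6Valid {c : ℕ} (h : sp6Valid c = true) : ∃ g : Sp6, sp6Code.enc g = c := by
  simp only [sp6Valid, Bool.and_eq_true, decide_eq_true_eq] at h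
  exact ⟨⟨_, SymplecticGroup.mem_iff.2 h.1⟩, Nat.eq_of_beq_eq_true h.2⟩

/-- All codes used. -/
def sp6All : List ℕ :=
  sp6ExpCert.D.gens ++ sp6ExpCert.D.gs ++ sp6RankCert.D.gens ++ sp6RankCert.D.gs ++
    sp6ThreeCert.D.gens ++ sp6ThreeCert.D.gs ++ [sp6One]

theorem sp6All_valid : sp6All.all sp6Valid = true := by decide +kernel

/-- The element with a given code. -/
noncomputable def sp6Elem (c : ℕ) : Sp6 :=
  if h : sp6Valid c = true then (exists_of_sp6Valid h).choose else 1

theorem enc_sp6Elem {L : List ℕ} (hL : ∀ x ∈ L, x ∈ sp6All) (i : ℕ) :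
    sp6Code.enc (sp6Elem (L.getD i sp6Code.one)) = L.getD i sp6Code.one := by
  have h : sp6Valid (L.getD i sp6Code.one) = true := by
    apply List.all_eq_true.1 sp6All_valid
    by_cases hi : i < L.length
    · rw [List.getD_eq_getElem _ _ hi]; exact hL _ (List.getElem_mem hi)
    · rw [List.getD_eq_default _ _ (Nat.le_of_not_lt hi)]
      show sp6One ∈ sp6All
      simp [sp6All]
  rw [sp6Elem, dif_pos h]
  exact (exists_of_sp6Valid h).choose_spec

theorem sp6Exp_check : sp6ExpCert.check (PackMat.mulCode 2 6) sp6One = true := by decide +kernel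
theorem sp6Rank_check : sp6RankCert.check (PackMat.mulCode 2 6) sp6One = true := by decide +kernel
theorem sp6Three_check : sp6ThreeCert.check (PackMat.mulCode 2 6) sp6One = true := by decide +kernel

theorem appliesSp6 (B : BCert) (p N m : ℕ) (hgm : ∀ x ∈ B.D.gens, x ∈ sp6All)
    (hfm : ∀ x ∈ B.D.gs, x ∈ sp6All) (hp : p.Prime) (hP : B.D.P.p = p) (hn : B.D.P.p ^ B.D.P.n = N)
    (hm : 1451520 = N * m) (hpm : ¬ p ∣ m) (hchk : B.check (PackMat.mulCode 2 6) sp6One = true) :
    Applies sp6Code B p (fun i => sp6Elem (B.D.gens.getD i sp6Code.one))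
      (fun i => sp6Elem (B.D.gs.getD i sp6Code.one)) := by
  have hgen : ∀ i < B.D.P.n, sp6Code.enc (sp6Elem (B.D.gens.getD i sp6Code.one)) =
      B.D.gens.getD i sp6Code.one := fun i _ => enc_sp6Elem hgm i
  have hc := hchk
  simp only [BCert.check, Bool.and_eq_true] at hc
  obtain ⟨-, hcard⟩ := card_initGroup_of_groupOK sp6Code B.D (hP.symm ▸ hp) _ hgen
    hc.1.1.1 hc.1.1.2
  refine ⟨hp, hP, hgen, enc_sp6Elem hfm, ?_, hchk⟩
  have h := (initGroup (fun i => sp6Elem (B.D.gens.getD i sp6Code.one)) B.D.P.n).card_mul_index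
  rw [hcard.trans hn, card_Sp6, hm] at h
  have hN : 0 < N := by rcases Nat.eq_zero_or_pos N with rfl | h0 <;> omega
  rwa [Nat.eq_of_mul_eq_mul_left hN h]

theorem card_schurMult_sp6_le : Nat.card (CentralExt.schurMult Sp6) ≤ 2 := by
  have hpos : Nat.card (CentralExt.schurMult Sp6) ≠ 0 := Nat.card_pos.ne'
  refine Nat.le_of_dvd (by norm_num) ?_
  rw [← Nat.factorization_le_iff_dvd hpos (by norm_num)]
  intro p
  by_cases hp : p.Prime
  swap
  · simp [Nat.factorization_eq_zero_of_not_prime _ hp]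
  rcases eq_or_ne p 2 with rfl | h2
  · refine (SchurSmall.factorization_schurMult_le sp6Code (k := 1) (r := 1)
      (appliesSp6 sp6RankCert 2 512 2835 (fun x hx => by simp [sp6All, hx])
        (fun x hx => by simp [sp6All, hx]) Nat.prime_two rfl rfl (by norm_num) (by norm_num) sp6Rank_check)
      (appliesSp6 sp6ExpCert 2 512 2835 (fun x hx => by simp [sp6All, hx])
        (fun x hx => by simp [sp6All, hx]) Nat.prime_two rfl rfl (by norm_num) (by norm_num) sp6Exp_check)
      rfl rfl le_rfl rfl rfl rfl).trans ?_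
    exact (Nat.prime_two.pow_dvd_iff_le_factorization (by norm_num)).1 (by norm_num)
  rcases eq_or_ne p 3 with rfl | h3
  · have h := appliesSp6 sp6ThreeCert 3 81 17920 (fun x hx => by simp [sp6All, hx])
      (fun x hx => by simp [sp6All, hx]) Nat.prime_three rfl rfl (by norm_num) (by norm_num)
      sp6Three_check
    refine (SchurSmall.factorization_schurMult_le sp6Code (k := 0) (r := 0) h h
      rfl rfl le_rfl rfl rfl rfl).trans ?_
    exact Nat.zero_le _
  haveI : Fact p.Prime := ⟨hp⟩
  rw [Nat.factorization_eq_zero_of_not_dvd (not_dvd_schurMult_of_sq_not_dvd p fun hsq => ?_)]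
  · exact Nat.zero_le _
  rw [card_Sp6] at hsq
  have hle : p ^ 2 ≤ 1451520 := Nat.le_of_dvd (by norm_num) hsq
  have hlt : p < 1205 := by nlinarith
  have key : ∀ q < 1205, q ^ 2 ∣ 1451520 → q % 2 = 0 ∨ q % 3 = 0 ∨ q = 1 := by decide +kernel
  rcases key p hlt hsq with h | h | h
  · exact h2 ((Nat.prime_dvd_prime_iff_eq Nat.prime_two hp).1 (Nat.dvd_of_mod_eq_zero h)).symm
  · exact h3 ((Nat.prime_dvd_prime_iff_eq Nat.prime_three hp).1 (Nat.dvd_of_mod_eq_zero h)).symm
  · exact hp.ne_one h

/-- A quadratic form polarising to the symplectic form, by its values on the basis. -/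
def formOf (b v : SpIdx → ZMod 2) : ZMod 2 :=
  (∑ i, b i * v i) + ∑ i : Fin 3, v (Sum.inl i) * v (Sum.inr i)

/-- The symplectic form. -/
def spForm (u v : SpIdx → ZMod 2) : ZMod 2 := u ⬝ᵥ (Matrix.J (Fin 3) (ZMod 2) *ᵥ v)

theorem spForm_eq (u v : SpIdx → ZMod 2) : spForm u v =
    ∑ i : Fin 3, (u (Sum.inr i) * v (Sum.inl i) + u (Sum.inl i) * v (Sum.inr i)) := by
  simp [spForm, Matrix.J, Matrix.fromBlocks_mulVec, dotProduct, Fintype.sum_sum_type,
    Finset.sum_add_distrib, Matrix.one_mulVec, Matrix.neg_mulVec, ZMod.neg_eq_self_mod_two,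
    add_comm]

theorem formOf_add (b u v : SpIdx → ZMod 2) :
    formOf b (u + v) = formOf b u + formOf b v + spForm u v := by
  rw [spForm_eq]
  simp only [formOf, Pi.add_apply, mul_add, add_mul, Finset.sum_add_distrib]
  have : ∀ i : Fin 3, v (Sum.inl i) * u (Sum.inr i) = u (Sum.inr i) * v (Sum.inl i) :=
    fun i => mul_comm _ _
  simp only [this]
  abel

theorem formOf_single : ∀ (b : SpIdx → ZMod 2) (i : SpIdx), formOf b (Pi.single i 1) = b i := by
  intro b i
  have h : ∀ j : Fin 3, (Pi.single i 1 : SpIdx → ZMod 2) (Sum.inl j) *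
      (Pi.single i 1 : SpIdx → ZMod 2) (Sum.inr j) = 0 := fun j => by
    rcases i with i | i <;> simp
  rw [formOf, Fintype.sum_eq_zero _ h, add_zero]
  simp [Pi.single_apply]

/-- A function polarising to the symplectic form is the form with its values on the basis. -/
theorem eq_formOf {f : (SpIdx → ZMod 2) → ZMod 2}
    (hf : ∀ u v, f (u + v) = f u + f v + spForm u v) :
    f = formOf (fun i => f (Pi.single i 1)) := by
  set b : SpIdx → ZMod 2 := fun i => f (Pi.single i 1)
  let δ : (SpIdx → ZMod 2) →+ ZMod 2 := AddMonoidHom.mk' (fun v => f v - formOf b v) fun u v => by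
    rw [hf, formOf_add]; abel
  have h : δ = 0 := by
    refine AddMonoidHom.functions_ext (ZMod 2) δ 0 fun i x => ?_
    obtain rfl | rfl : x = 0 ∨ x = 1 := by revert x; decide
    · rw [Pi.single_zero, map_zero, map_zero]
    · show f (Pi.single i 1) - formOf b (Pi.single i 1) = 0
      rw [formOf_single]; exact sub_self _
  funext v
  exact sub_eq_zero.1 (DFunLike.congr_fun h v)

/-- The number of zeros of a form. -/
def zeros (b : SpIdx → ZMod 2) : ℕ :=
  (Finset.univ.filter fun v : SpIdx → ZMod 2 => formOf b v = 0).card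

/-- The 28 forms of minus type. -/
abbrev Minus := {b : SpIdx → ZMod 2 // zeros b = 28}

/-- The values on the basis of the transformed form. -/
def moveForm (g : Sp6) (b : SpIdx → ZMod 2) : SpIdx → ZMod 2 := fun i =>
  formOf b ((g⁻¹ : Sp6).1 *ᵥ Pi.single i 1)

theorem spForm_mulVec (g : Sp6) (u v : SpIdx → ZMod 2) : spForm (g.1 *ᵥ u) (g.1 *ᵥ v) = spForm u v := by
  have h := SymplecticGroup.mem_iff'.1 g.2
  rw [spForm, spForm, Matrix.mulVec_mulVec, dotProduct_mulVec, ← Matrix.vecMul_transpose,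
    Matrix.vecMul_vecMul, ← dotProduct_mulVec, ← Matrix.mul_assoc, h]

theorem formOf_move (g : Sp6) (b v : SpIdx → ZMod 2) :
    formOf (moveForm g b) v = formOf b ((g⁻¹ : Sp6).1 *ᵥ v) := by
  refine (congrFun (eq_formOf (f := fun v => formOf b ((g⁻¹ : Sp6).1 *ᵥ v)) fun u w => ?_) v).symm
  simp only [Matrix.mulVec_add, formOf_add, spForm_mulVec]

theorem zeros_move (g : Sp6) (b : SpIdx → ZMod 2) : zeros (moveForm g b) = zeros b := by
  have e : ∀ (h : Sp6) (v : SpIdx → ZMod 2), (h⁻¹ : Sp6).1 *ᵥ (h.1 *ᵥ v) = v := fun h v => by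
    rw [Matrix.mulVec_mulVec, ← Submonoid.coe_mul, inv_mul_cancel]
    exact Matrix.one_mulVec v
  refine Finset.card_nbij' (fun v => (g⁻¹ : Sp6).1 *ᵥ v) (fun v => g.1 *ᵥ v) ?_ ?_ ?_ ?_
  · intro v hv; simpa [formOf_move] using hv
  · intro v hv; simpa [formOf_move, e] using hv
  · intro v _
    have := e g⁻¹ v
    rwa [inv_inv] at this
  · intro v _; exact e g v

instance : MulAction Sp6 Minus where
  smul g b := ⟨moveForm g b.1, (zeros_move g b.1).trans b.2⟩
  one_smul b := Subtype.ext (funext fun i => by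
    show formOf b.1 (((1 : Sp6)⁻¹ : Sp6).1 *ᵥ Pi.single i 1) = b.1 i
    rw [inv_one, OneMemClass.coe_one, Matrix.one_mulVec, formOf_single])
  mul_smul g h b := Subtype.ext (funext fun i => by
    show formOf b.1 ((g * h)⁻¹.1 *ᵥ Pi.single i 1) =
      formOf (moveForm h b.1) ((g⁻¹ : Sp6).1 *ᵥ Pi.single i 1)
    rw [formOf_move, Matrix.mulVec_mulVec, _root_.mul_inv_rev, Submonoid.coe_mul])

/-- The transvection along the first basis vector. -/
def transv : Sp6 :=
  ⟨1 + Matrix.single (Sum.inl 0) (Sum.inr 0) 1, SymplecticGroup.mem_iff.2 (by decide +kernel)⟩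

theorem transv_sq : transv * transv = 1 := Subtype.ext (by decide +kernel)

/-- Six bits as the values on the basis. -/
def formBits (n : ℕ) : SpIdx → ZMod 2 := fun i => (n.testBit (spNum i).1).toNat

/-- The twelve forms moved by the transvection, in pairs. -/
def movedForm : Fin 12 → ℕ := ![18, 26, 22, 30, 36, 44, 38, 46, 50, 58, 52, 60]

theorem movedForm_zeros : ∀ i, zeros (formBits (movedForm i)) = 28 := by decide +kernel

/-- The twelve points moved. -/
def movedPt (i : Fin 12) : Minus := ⟨formBits (movedForm i), movedForm_zeros i⟩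

theorem movedPt_injective : Function.Injective movedPt := by
  intro i j h
  have h' : formBits (movedForm i) = formBits (movedForm j) := congrArg Subtype.val h
  have key : ∀ i j : Fin 12, formBits (movedForm i) = formBits (movedForm j) → i = j := by
    decide +kernel
  exact key i j h'

theorem transv_perm : ∀ b : SpIdx → ZMod 2, zeros b = 28 →
    (fun i => formOf b (transv.1 *ᵥ Pi.single i 1)) =
      (Equiv.swap (formBits 18) (formBits 26) * Equiv.swap (formBits 22) (formBits 30) *
        (Equiv.swap (formBits 36) (formBits 44) * Equiv.swap (formBits 38) (formBits 46)) *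
        (Equiv.swap (formBits 50) (formBits 58) * Equiv.swap (formBits 52) (formBits 60))) b := by
  decide +kernel

theorem swap_val (a b x : Minus) : (Equiv.swap a b x).1 = Equiv.swap a.1 b.1 x.1 :=
  (Subtype.val_injective.swap_apply a b x).symm

theorem exists_stem_two_Sp6 : ∃ (W : Type) (_ : Group W) (_ : Finite W) (σ : W →* Sp6),
    Cfsg.IsStemExtension σ ∧ Nat.card σ.ker = 2 := by
  let e : Minus ≃ Fin (Fintype.card Minus - 1 + 1) :=
    (Fintype.equivFin Minus).trans (finCongr (by
      have : 0 < Fintype.card Minus := Fintype.card_pos_iff.2 ⟨movedPt 0⟩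
      omega))
  refine exists_stem_two_of_perm perfect_Sp6
    (e.permCongrHom.toMonoidHom.comp (MulAction.toPermHom Sp6 Minus)) transv transv_sq
    (fun i => e (movedPt i)) (e.injective.comp movedPt_injective) ?_
  have hperm : MulAction.toPermHom Sp6 Minus transv =
      Equiv.swap (movedPt 0) (movedPt 1) * Equiv.swap (movedPt 2) (movedPt 3) *
        (Equiv.swap (movedPt 4) (movedPt 5) * Equiv.swap (movedPt 6) (movedPt 7)) *
        (Equiv.swap (movedPt 8) (movedPt 9) * Equiv.swap (movedPt 10) (movedPt 11)) := by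
    refine Equiv.ext fun b => Subtype.ext ?_
    show moveForm transv b.1 = _
    unfold moveForm
    rw [inv_eq_of_mul_eq_one_right transv_sq, transv_perm b.1 b.2]
    simp only [Equiv.Perm.mul_apply, swap_val]
    rfl
  have hsw : ∀ a b : Minus, e.permCongrHom (Equiv.swap a b) = Equiv.swap (e a) (e b) :=
    fun a b => Equiv.symm_trans_swap_trans a b e
  show e.permCongrHom (MulAction.toPermHom Sp6 Minus transv) = _
  rw [hperm]
  simp only [map_mul, hsw]

theorem hasCyclicSchurMultiplier_Sp6 : Cfsg.HasCyclicSchurMultiplier Sp6 2 := by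
  obtain ⟨W, _, _, σ, hσ, hc⟩ := exists_stem_two_Sp6
  haveI : Fact (Nat.Prime 2) := ⟨Nat.prime_two⟩
  haveI : IsCyclic σ.ker := isCyclic_of_prime_card hc
  exact CentralExt.hasSchurMultiplier_of_stem hσ (card_schurMult_sp6_le.trans hc.ge)
    (mulEquivOfCyclicCardEq (by rw [hc, Nat.card_congr Multiplicative.toAdd, Nat.card_zmod]))

theorem hasCyclicSchurMultiplier_PSp6 {F : Type*} [Field F] [Fintype F] (hF : Fintype.card F = 2) :
    Cfsg.HasCyclicSchurMultiplier (Cfsg.PSp 3 F) 2 := by
  haveI : Fact (Nat.Prime 2) := ⟨Nat.prime_two⟩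
  obtain ⟨r⟩ : Nonempty (ZMod 2 ≃+* F) :=
    ⟨FiniteField.ringEquivOfCardEq ((ZMod.card 2).trans hF.symm)⟩
  let f : Sp6 ≃* Matrix.symplecticGroup (Fin 3) F :=
    { toFun := fun A => ⟨A.1.map r, SymplecticGroup.map_mem (f := r.toRingHom) A.2⟩
      invFun := fun A => ⟨A.1.map r.symm, SymplecticGroup.map_mem (f := r.symm.toRingHom) A.2⟩
      left_inv := fun A => Subtype.ext (by ext i j; simp)
      right_inv := fun A => Subtype.ext (by ext i j; simp)
      map_mul' := fun A B => Subtype.ext (map_mul r.mapMatrix A.1 B.1) }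
  have hz : Subgroup.center (Matrix.symplecticGroup (Fin 3) F) = ⊥ :=
    Subgroup.card_eq_one.1 ((Cfsg.Agent.S0246.result hF 3 (by norm_num)).trans (by norm_num))
  exact CentralExt.hasSchurMultiplier_congr
    (f.trans ((QuotientGroup.quotientMulEquivOfEq hz).trans QuotientGroup.quotientBot).symm)
    hasCyclicSchurMultiplier_Sp6

end Cfsg.Agent.SchurSmall
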