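import Cfsg.Agent.SchurSmall.G2Code
import Cfsg.Agent.SchurSmall.G2CoresData
import Cfsg.Agent.SchurSmall.G2Bounds

set_option autoImplicit false
set_option maxRecDepth 100000

/-!
Checks of the certificates for G2(3).
-/

namespace Cfsg.Agent.SchurSmall

open Cfsg.Agent.SchurCert Cfsg.Agent.SchurBound

theorem g2Cores_keys : g2CoresCert.keysOK g2Key = true := by decide +kernel

end Cfsg.Agent.SchurSmall
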