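import Cfsg.Agent.SchurSmall.G2Code
import Cfsg.Agent.SchurSmall.G2CoresData
import Cfsg.Agent.SchurSmall.G2Bounds

set_option autoImplicit false
set_option maxRecDepth 100000

/-!
Checks of the certificates for G2(3).
-/

namespace Cfsg.Agent.SchurSmall

open Cfsg.Agent.SchurCert Cfsg.Agent.SchurBound

theorem g2Cores_taby : g2CoresCert.tabOK FastSeven.mulFast 100 g2Py g2Uy = true := by decide +kernel

theorem g2Cores_comm : Nat.beq (FastSeven.mulFast (g2CoresCert.Uc 486) (g2CoresCert.Uc 100))
    (FastSeven.mulFast (g2CoresCert.Uc 100) (g2CoresCert.Uc 486)) = true := by decide +kernel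

theorem g2Cores_val : Nat.beq (Nat.mod (g2CoresCert.coresSum g2Ux g2Py g2Uy) g2CoresCert.n)
    (Nat.mod (Nat.add (g2CoresCert.coresSum g2Uy g2Px g2Ux) 1) g2CoresCert.n) = true := by
  decide +kernel

end Cfsg.Agent.SchurSmall
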