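import Cfsg.Agent.SchurSmall.G2CoresData

set_option autoImplicit false
set_option maxRecDepth 100000

/-!
The cocycle identities for G2(3), part 0.
-/

namespace Cfsg.Agent.SchurSmall

theorem g2Cores_coc0 : g2CoresCert.cocFrom 0 27 = true := by decide +kernel

theorem g2Cores_coc1 : g2CoresCert.cocFrom 27 27 = true := by decide +kernel

theorem g2Cores_coc2 : g2CoresCert.cocFrom 54 27 = true := by decide +kernel

end Cfsg.Agent.SchurSmall
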