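import Cfsg.Agent.SchurSmall.FastSeven
import Cfsg.Agent.SchurSmall.G2Words
import Cfsg.Agent.S1055
import Cfsg.Agent.S1059
import Cfsg.Prelude.Def_ChevG2

set_option autoImplicit false
set_option maxRecDepth 20000
set_option linter.style.haveILetI false

/-!
Codes for G2(3) by its action on the seven-dimensional ideal of the Lie algebra.
-/

namespace Cfsg.Agent.SchurSmall

open Matrix Cfsg.Lie Cfsg.Agent.SchurCert Cfsg.Agent.SchurBound

local notation "Z₃" => ZMod 3

/-- The group. -/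
abbrev G23 : Subgroup (GL chevG2.Idx Z₃) := chevG2.group Z₃

/-- The coordinates of the ideal. -/
def idealIdx : Fin 7 → chevG2.Idx :=
  ![Sum.inl ⟨0, by decide⟩, Sum.inr ⟨2, by decide⟩, Sum.inr ⟨3, by decide⟩, Sum.inr ⟨4, by decide⟩,
    Sum.inr ⟨7, by decide⟩, Sum.inr ⟨8, by decide⟩, Sum.inr ⟨9, by decide⟩]

theorem idealIdx_injective : Function.Injective idealIdx := by decide +kernel

/-- The ideal is invariant. -/
def Keeps (M : Matrix chevG2.Idx chevG2.Idx Z₃) : Prop :=
  ∀ a : chevG2.Idx, (∀ c, idealIdx c ≠ a) → ∀ c, M a (idealIdx c) = 0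

theorem keeps_gen : ∀ (r : Fin chevG2.nroots) (t : Z₃) (a : chevG2.Idx) (c : Fin 7),
    (∀ d, idealIdx d ≠ a) → chevG2.xMat Z₃ r t a (idealIdx c) = 0 := by decide +kernel

theorem keeps_mul {M N : Matrix chevG2.Idx chevG2.Idx Z₃} (hM : Keeps M) (hN : Keeps N) :
    Keeps (M * N) := fun a ha c => by
  rw [Matrix.mul_apply]
  refine Finset.sum_eq_zero fun b _ => ?_
  by_cases hb : ∀ d, idealIdx d ≠ b
  · rw [hN b hb c, mul_zero]
  · obtain ⟨d, rfl⟩ : ∃ d, idealIdx d = b := by simpa using hb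
    rw [hM a ha d, zero_mul]

theorem keeps_mem (g : G23) : Keeps (g.1 : Matrix chevG2.Idx chevG2.Idx Z₃) := by
  obtain ⟨g, hg⟩ := g
  have hpow : ∀ h : GL chevG2.Idx Z₃, Keeps (h : Matrix chevG2.Idx chevG2.Idx Z₃) → ∀ k : ℕ,
      Keeps ((h ^ k : GL chevG2.Idx Z₃) : Matrix chevG2.Idx chevG2.Idx Z₃) := fun h hh k => by
    induction k with
    | zero =>
      intro a ha c
      rw [pow_zero, Units.val_one, Matrix.one_apply_ne (ha c).symm]
    | succ k ih => rw [pow_succ, Units.val_mul]; exact keeps_mul ih hh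
  induction hg using Subgroup.closure_induction with
  | mem x hx =>
    obtain ⟨r, t, hx⟩ := hx
    intro a ha c
    show (x : Matrix chevG2.Idx chevG2.Idx Z₃) a (idealIdx c) = 0
    rw [hx]; exact keeps_gen r t a c ha
  | one =>
    intro a ha c
    show (1 : Matrix chevG2.Idx chevG2.Idx Z₃) a (idealIdx c) = 0
    exact Matrix.one_apply_ne (ha c).symm
  | mul x y _ _ ihx ihy => exact keeps_mul ihx ihy
  | inv x _ ih =>
    have hx : x⁻¹ = x ^ (orderOf x - 1) := by
      have h := pow_orderOf_eq_one x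
      rw [show orderOf x = (orderOf x - 1) + 1 from
        (Nat.sub_add_cancel (orderOf_pos x)).symm, pow_succ] at h
      exact inv_eq_of_mul_eq_one_left h
    show Keeps ((x⁻¹ : GL chevG2.Idx Z₃) : Matrix chevG2.Idx chevG2.Idx Z₃)
    rw [hx]; exact hpow x ih _

/-- The action on the ideal. -/
def onIdeal : G23 →* Matrix (Fin 7) (Fin 7) Z₃ where
  toFun g := (g.1 : Matrix chevG2.Idx chevG2.Idx Z₃).submatrix idealIdx idealIdx
  map_one' := Matrix.submatrix_one _ idealIdx_injective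
  map_mul' g h := by
    ext a c
    simp only [Matrix.submatrix_apply, Matrix.mul_apply, Subgroup.coe_mul, Units.val_mul]
    rw [← Finset.sum_image (f := fun b => (g.1 : Matrix chevG2.Idx chevG2.Idx Z₃) (idealIdx a) b *
      (h.1 : Matrix chevG2.Idx chevG2.Idx Z₃) b (idealIdx c))
      (fun x _ y _ hxy => idealIdx_injective hxy)]
    refine (Finset.sum_subset (Finset.subset_univ _) fun b _ hb => ?_).symm
    rw [keeps_mem h b (fun d hd => hb (Finset.mem_image.2 ⟨d, Finset.mem_univ d, hd⟩)) c, mul_zero]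

/-- A root element. -/
def rootElt (r : Fin chevG2.nroots) : G23 :=
  ⟨⟨chevG2.xMat Z₃ r 1, chevG2.xMat Z₃ r 2, by revert r; decide +kernel, by revert r; decide +kernel⟩,
    Subgroup.subset_closure ⟨r, 1, rfl⟩⟩

theorem rootElt_ne : onIdeal (rootElt ⟨11, by decide⟩) ≠ 1 := by decide +kernel

theorem two_ne_three : (2 : Z₃) ≠ 0 ∧ (2 : Z₃) ≠ 1 := by decide

theorem onIdeal_injective : Function.Injective onIdeal := by
  haveI : Fact (Nat.Prime 3) := ⟨Nat.prime_three⟩
  haveI : IsSimpleGroup G23 := (Cfsg.Agent.S1055.result (F := Z₃) ⟨2, two_ne_three.1, two_ne_three.2⟩).1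
  refine (injective_iff_map_eq_one onIdeal).2 fun x hx => ?_
  rcases IsSimpleGroup.eq_bot_or_eq_top_of_normal onIdeal.ker inferInstance with h | h
  · exact Subgroup.mem_bot.1 (h ▸ (MonoidHom.mem_ker.2 hx))
  · exact absurd (MonoidHom.mem_ker.1 (h ▸ Subgroup.mem_top _)) rootElt_ne

theorem card_G23 : Nat.card G23 = 4245696 := by
  haveI : Fact (Nat.Prime 3) := ⟨Nat.prime_three⟩
  rw [Cfsg.Agent.S1059.result (F := Z₃) (ZMod.card 3)]
  norm_num

/-- The numbering of the coordinates. -/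
def sevenNum : Fin 7 ≃ Fin 7 := Equiv.refl _

/-- The code of the identity. -/
def g2One : ℕ := PackMat.enc sevenNum (1 : Matrix (Fin 7) (Fin 7) Z₃)

/-- Codes of elements. -/
def g2Code : Code G23 where
  mul := FastSeven.mulFast
  one := g2One
  enc g := PackMat.enc sevenNum (onIdeal g)
  enc_one := by rw [map_one]; rfl
  enc_mul a b := by rw [map_mul]; exact FastSeven.enc_mul sevenNum _ _
  enc_inj _ _ h := onIdeal_injective (PackMat.enc_injective sevenNum (by norm_num) h)

/-- The step of a straight line program. -/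
def slpStep (k : ℕ) : ℕ × ℕ × ℕ := g2Slp.getD k (0, 0, 0)

theorem g2Slp_head : (slpStep 0).1 = g2One ∧ ∀ r : Fin chevG2.nroots,
    (slpStep (r.1 + 1)).1 = PackMat.enc sevenNum (onIdeal (rootElt r)) := by decide +kernel

theorem g2Slp_tail : allN (fun k => Nat.blt k 13 ||
    (Nat.blt (slpStep k).2.1 k && Nat.blt (slpStep k).2.2 k &&
      Nat.beq (slpStep k).1 (FastSeven.mulFast (slpStep (slpStep k).2.1).1 (slpStep (slpStep k).2.2).1)))
    g2Slp.length = true := by decide +kernel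

theorem g2Slp_len : 13 ≤ g2Slp.length := by decide +kernel

theorem exists_of_slp : ∀ k < g2Slp.length, ∃ g : G23, g2Code.enc g = (slpStep k).1 := by
  intro k
  induction k using Nat.strong_induction_on with
  | _ k ih =>
    intro hk
    by_cases h13 : k < 13
    · rcases Nat.eq_zero_or_pos k with rfl | hpos
      · exact ⟨1, by rw [g2Code.enc_one]; exact g2Slp_head.1.symm⟩
      · have hr : k - 1 < chevG2.nroots := by show k - 1 < 12; omega
        refine ⟨rootElt ⟨k - 1, hr⟩, ?_⟩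
        show PackMat.enc sevenNum (onIdeal (rootElt ⟨k - 1, hr⟩)) = _
        rw [← g2Slp_head.2 ⟨k - 1, hr⟩, show k - 1 + 1 = k by omega]
    · have h := allN_iff g2Slp_tail k hk
      rw [Bool.or_eq_true, Nat.blt_eq] at h
      have h' := h.resolve_left h13
      simp only [Bool.and_eq_true, Nat.blt_eq] at h'
      obtain ⟨⟨h1, h2⟩, h3⟩ := h'
      obtain ⟨a, ha⟩ := ih _ h1 (h1.trans hk)
      obtain ⟨b, hb⟩ := ih _ h2 (h2.trans hk)
      exact ⟨a * b, by rw [g2Code.enc_mul, ha, hb, Nat.eq_of_beq_eq_true h3]; rfl⟩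

theorem exists_of_mem_slp {c : ℕ} (hc : c ∈ g2Slp.map Prod.fst) : ∃ g : G23, g2Code.enc g = c := by
  obtain ⟨t, ht, rfl⟩ := List.mem_map.1 hc
  obtain ⟨k, hk, rfl⟩ := List.getElem_of_mem ht
  obtain ⟨g, hg⟩ := exists_of_slp k hk
  exact ⟨g, by rw [hg, slpStep, List.getD_eq_getElem _ _ hk]⟩

/-- A matrix with a single one. -/
def unitMat (i j : Fin 7) : Matrix (Fin 7) (Fin 7) Z₃ := Matrix.single i j 1

/-- The code selecting the last column. -/
def keyA : ℕ := 0x1000000000000000000000000000000000000000000000000000000000000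
/-- Codes selecting the combinations for the second column. -/
def keyB : ℕ := 0x100000000000000000000000000000000000000000000000000
/-- Codes selecting the combinations for the second column. -/
def keyC : ℕ := 0x80000000100000000000000000000000000000000000000000000000000
/-- Codes selecting the combinations for the second column. -/
def keyD : ℕ := 0x100000000100000000000000000000000000000000000000000000000000

theorem key_read : ∀ c ∈ [keyA, keyB, keyC, keyD],
    PackMat.enc sevenNum (PackMat.read sevenNum c : Matrix (Fin 7) (Fin 7) Z₃) = c := by decide +kernel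

/-- The key of a coset. -/
def g2Key (q : ℕ) : ℕ :=
  Nat.add (FastSeven.mulFast q keyA) (Nat.mul (Nat.pow 2 245)
    (min (FastSeven.mulFast q keyB) (min (FastSeven.mulFast q keyC) (FastSeven.mulFast q keyD))))

/-- A code fixing the flag. -/
def g2Fix (u : ℕ) : Bool :=
  Nat.beq (PackMat.enc sevenNum (PackMat.read sevenNum u : Matrix (Fin 7) (Fin 7) Z₃)) u &&
  Nat.beq (FastSeven.mulFast u keyA) keyA &&
  ((Nat.beq (FastSeven.mulFast u keyB) keyB && Nat.beq (FastSeven.mulFast u keyC) keyC &&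
      Nat.beq (FastSeven.mulFast u keyD) keyD) ||
    (Nat.beq (FastSeven.mulFast u keyB) keyC && Nat.beq (FastSeven.mulFast u keyC) keyD &&
      Nat.beq (FastSeven.mulFast u keyD) keyB) ||
    (Nat.beq (FastSeven.mulFast u keyB) keyD && Nat.beq (FastSeven.mulFast u keyC) keyB &&
      Nat.beq (FastSeven.mulFast u keyD) keyC))

attribute [local irreducible] FastSeven.mulFast

theorem key_combine (A x y z x' y' z' : ℕ)
    (h : (x' = x ∧ y' = y ∧ z' = z) ∨ (x' = y ∧ y' = z ∧ z' = x) ∨ (x' = z ∧ y' = x ∧ z' = y)) :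
    A + 2 ^ 245 * min x' (min y' z') = A + 2 ^ 245 * min x (min y z) := by
  have e : min x' (min y' z') = min x (min y z) := by omega
  rw [e]

theorem g2Key_mul (g : G23) {u : ℕ} (hu : g2Fix u = true) :
    g2Key (g2Code.mul (g2Code.enc g) u) = g2Key (g2Code.enc g) := by
  simp only [g2Fix, Bool.and_eq_true, Bool.or_eq_true] at hu
  obtain ⟨⟨hu0, huA⟩, hB⟩ := hu
  generalize hMu : (PackMat.read sevenNum u : Matrix (Fin 7) (Fin 7) Z₃) = Mu at hu0
  have hu' : PackMat.enc sevenNum Mu = u := Nat.eq_of_beq_eq_true hu0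
  have assoc : ∀ c ∈ [keyA, keyB, keyC, keyD],
      FastSeven.mulFast (FastSeven.mulFast (g2Code.enc g) u) c =
        FastSeven.mulFast (g2Code.enc g) (FastSeven.mulFast u c) := fun c hc => by
    obtain ⟨Mc, hMc⟩ : ∃ Mc : Matrix (Fin 7) (Fin 7) Z₃, PackMat.enc sevenNum Mc = c :=
      ⟨_, key_read c hc⟩
    obtain ⟨Mg, hMg⟩ : ∃ Mg : Matrix (Fin 7) (Fin 7) Z₃, PackMat.enc sevenNum Mg = g2Code.enc g :=
      ⟨onIdeal g, rfl⟩
    rw [← hMc, ← hu', ← hMg, ← FastSeven.enc_mul, ← FastSeven.enc_mul, ← FastSeven.enc_mul,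
      ← FastSeven.enc_mul, Matrix.mul_assoc]
  have a1 := assoc keyA (by simp)
  have b1 := assoc keyB (by simp)
  have c1 := assoc keyC (by simp)
  have d1 := assoc keyD (by simp)
  rw [Nat.eq_of_beq_eq_true huA] at a1
  have e : g2Code.mul (g2Code.enc g) u = FastSeven.mulFast (g2Code.enc g) u := rfl
  rw [e]
  unfold g2Key
  rw [a1]
  refine key_combine _ _ _ _ _ _ _ ?_
  rcases hB with (⟨⟨a, b⟩, c⟩ | ⟨⟨a, b⟩, c⟩) | ⟨⟨a, b⟩, c⟩
  · exact Or.inl ⟨b1.trans (by rw [Nat.eq_of_beq_eq_true a]), c1.trans (by rw [Nat.eq_of_beq_eq_true b]),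
      d1.trans (by rw [Nat.eq_of_beq_eq_true c])⟩
  · exact Or.inr (Or.inl ⟨b1.trans (by rw [Nat.eq_of_beq_eq_true a]),
      c1.trans (by rw [Nat.eq_of_beq_eq_true b]), d1.trans (by rw [Nat.eq_of_beq_eq_true c])⟩)
  · exact Or.inr (Or.inr ⟨b1.trans (by rw [Nat.eq_of_beq_eq_true a]),
      c1.trans (by rw [Nat.eq_of_beq_eq_true b]), d1.trans (by rw [Nat.eq_of_beq_eq_true c])⟩)

end Cfsg.Agent.SchurSmall
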