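import Cfsg.Agent.SchurSmall.Rank
import Cfsg.Agent.SchurSmall.Chars
import Cfsg.Agent.SchurSmall.G2Code
import Cfsg.Agent.SchurSmall.G2Bounds
import Cfsg.Agent.SchurSmall.G2CoresData
import Cfsg.Agent.SchurSmall.G2Coc0
import Cfsg.Agent.SchurSmall.G2Coc1
import Cfsg.Agent.SchurSmall.G2Coc2
import Cfsg.Agent.SchurSmall.G2ChkReps
import Cfsg.Agent.SchurSmall.G2ChkKeys
import Cfsg.Agent.SchurSmall.G2ChkSub
import Cfsg.Agent.SchurSmall.G2ChkTabX
import Cfsg.Agent.SchurSmall.G2ChkTabY
import Cfsg.Agent.SchurSmall.G2ChkBounds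
import Cfsg.Agent.SchurCert.Trivial
import Cfsg.Agent.ChevGrp.FieldAut
import Mathlib.FieldTheory.Finite.GaloisField

set_option autoImplicit false
set_option maxRecDepth 100000
set_option maxHeartbeats 800000
set_option linter.style.haveILetI false

/-!
The Schur multiplier of G2(3).
-/

namespace Cfsg.Agent.SchurSmall

open Cfsg Cfsg.Lie Cfsg.Agent.SchurCert Cfsg.Agent.SchurBound
open scoped commutatorElement

/-- All codes used. -/
def g2All : List ℕ :=
  g2ExpCert.D.gens ++ g2ExpCert.D.gs ++ g2RankCert.D.gens ++ g2RankCert.D.gs ++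
    g2TwoCert.D.gens ++ g2TwoCert.D.gs ++ g2CoresCert.gens ++ [g2One]

theorem g2All_valid : g2All.all (fun c => (g2Slp.map Prod.fst).any (Nat.beq c)) = true := by
  decide +kernel

theorem exists_of_all {c : ℕ} (hc : c ∈ g2All) : ∃ g : G23, g2Code.enc g = c := by
  obtain ⟨d, hd, he⟩ := List.any_eq_true.1 (List.all_eq_true.1 g2All_valid c hc)
  rw [Nat.eq_of_beq_eq_true he]
  exact exists_of_mem_slp hd

open Classical in
/-- The element with a given code. -/
noncomputable def g2Elem (c : ℕ) : G23 := if h : ∃ g, g2Code.enc g = c then h.choose else 1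

theorem enc_g2Elem {L : List ℕ} (hL : ∀ x ∈ L, x ∈ g2All) (i : ℕ) :
    g2Code.enc (g2Elem (L.getD i g2Code.one)) = L.getD i g2Code.one := by
  have h : L.getD i g2Code.one ∈ g2All := by
    by_cases hi : i < L.length
    · rw [List.getD_eq_getElem _ _ hi]; exact hL _ (List.getElem_mem hi)
    · rw [List.getD_eq_default _ _ (Nat.le_of_not_lt hi)]
      show g2One ∈ g2All
      simp [g2All]
  rw [g2Elem, dif_pos (exists_of_all h)]
  exact (exists_of_all h).choose_spec


theorem applies_of_elem {G : Type} [Group G] [Finite G] (C : Code G) (el : ℕ → G) (B : BCert)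
    (p N m : ℕ) (hgen : ∀ i, C.enc (el (B.D.gens.getD i C.one)) = B.D.gens.getD i C.one)
    (hgs : ∀ i, C.enc (el (B.D.gs.getD i C.one)) = B.D.gs.getD i C.one) (hp : p.Prime)
    (hP : B.D.P.p = p) (hn : B.D.P.p ^ B.D.P.n = N) (hcardG : Nat.card G = N * m) (hpm : ¬ p ∣ m)
    (hchk : B.check C.mul C.one = true) :
    Applies C B p (fun i => el (B.D.gens.getD i C.one)) (fun i => el (B.D.gs.getD i C.one)) := by
  have hc := hchk
  simp only [BCert.check, Bool.and_eq_true] at hc
  obtain ⟨-, hcard⟩ := card_initGroup_of_groupOK C B.D (hP.symm ▸ hp)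
    (fun i => el (B.D.gens.getD i C.one)) (fun i _ => hgen i) hc.1.1.1 hc.1.1.2
  refine ⟨hp, hP, fun i _ => hgen i, hgs, ?_, hchk⟩
  have h := (initGroup (fun i => el (B.D.gens.getD i C.one)) B.D.P.n).card_mul_index
  rw [hcard.trans hn, hcardG] at h
  have hN : 0 < N := by
    rcases Nat.eq_zero_or_pos N with rfl | h0
    · rw [zero_mul] at hcardG; exact absurd hcardG Nat.card_pos.ne'
    · exact h0
  rwa [Nat.eq_of_mul_eq_mul_left hN h]

theorem appliesG2 (B : BCert) (p N m : ℕ) (hgm : ∀ x ∈ B.D.gens, x ∈ g2All)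
    (hfm : ∀ x ∈ B.D.gs, x ∈ g2All) (hp : p.Prime) (hP : B.D.P.p = p) (hn : B.D.P.p ^ B.D.P.n = N)
    (hm : 4245696 = N * m) (hpm : ¬ p ∣ m) (hchk : B.check g2Code.mul g2Code.one = true) :
    Applies g2Code B p (fun i => g2Elem (B.D.gens.getD i g2Code.one))
      (fun i => g2Elem (B.D.gs.getD i g2Code.one)) :=
  applies_of_elem g2Code g2Elem B p N m (enc_g2Elem hgm) (enc_g2Elem hfm) hp hP hn
    (card_G23.trans hm) hpm hchk

theorem card_schurMult_g2_le : Nat.card (CentralExt.schurMult G23) ≤ 3 := by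
  have hpos : Nat.card (CentralExt.schurMult G23) ≠ 0 := Nat.card_pos.ne'
  refine Nat.le_of_dvd (by norm_num) ?_
  rw [← Nat.factorization_le_iff_dvd hpos (by norm_num)]
  intro p
  by_cases hp : p.Prime
  swap
  · simp [Nat.factorization_eq_zero_of_not_prime _ hp]
  rcases eq_or_ne p 3 with rfl | h3
  · refine (SchurSmall.factorization_schurMult_le g2Code (k := 1) (r := 1)
      (appliesG2 g2RankCert 3 729 5824 (fun x hx => by simp [g2All, hx])
        (fun x hx => by simp [g2All, hx]) Nat.prime_three rfl rfl (by norm_num) (by norm_num) g2Rank_check)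
      (appliesG2 g2ExpCert 3 729 5824 (fun x hx => by simp [g2All, hx])
        (fun x hx => by simp [g2All, hx]) Nat.prime_three rfl rfl (by norm_num) (by norm_num) g2Exp_check)
      rfl rfl le_rfl rfl rfl rfl).trans ?_
    exact (Nat.prime_three.pow_dvd_iff_le_factorization (by norm_num)).1 (by norm_num)
  rcases eq_or_ne p 2 with rfl | h2
  · have h := appliesG2 g2TwoCert 2 64 66339 (fun x hx => by simp [g2All, hx])
      (fun x hx => by simp [g2All, hx]) Nat.prime_two rfl rfl (by norm_num) (by norm_num)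
      g2Two_check
    refine (SchurSmall.factorization_schurMult_le g2Code (k := 0) (r := 0) h h
      rfl rfl le_rfl rfl rfl rfl).trans ?_
    exact Nat.zero_le _
  haveI : Fact p.Prime := ⟨hp⟩
  rw [Nat.factorization_eq_zero_of_not_dvd (not_dvd_schurMult_of_sq_not_dvd p fun hsq => ?_)]
  · exact Nat.zero_le _
  rw [card_G23] at hsq
  have hle : p ^ 2 ≤ 4245696 := Nat.le_of_dvd (by norm_num) hsq
  have hlt : p < 2061 := by nlinarith
  have key : ∀ q < 2061, q ^ 2 ∣ 4245696 → q % 2 = 0 ∨ q % 3 = 0 ∨ q = 1 := by decide +kernel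
  rcases key p hlt hsq with h | h | h
  · exact h2 ((Nat.prime_dvd_prime_iff_eq Nat.prime_two hp).1 (Nat.dvd_of_mod_eq_zero h)).symm
  · exact h3 ((Nat.prime_dvd_prime_iff_eq Nat.prime_three hp).1 (Nat.dvd_of_mod_eq_zero h)).symm
  · exact hp.ne_one h

theorem g2Cores_coc : g2CoresCert.cocOK = true := by
  refine g2CoresCert.cocOK_of_from 27 (by norm_num) fun c hc => Or.inl ?_
  have hc' : c < 9 := by
    have : g2CoresCert.Q = 243 := rfl
    omega
  interval_cases c
  · exact g2Cores_coc0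
  · exact g2Cores_coc1
  · exact g2Cores_coc2
  · exact g2Cores_coc3
  · exact g2Cores_coc4
  · exact g2Cores_coc5
  · exact g2Cores_coc6
  · exact g2Cores_coc7
  · exact g2Cores_coc8

theorem hasCyclicSchurMultiplier_G23 : Cfsg.HasCyclicSchurMultiplier G23 3 := by
  haveI : NeZero g2CoresCert.n := ⟨Nat.succ_ne_zero 2⟩
  obtain ⟨F, X, Y, hXY, hv⟩ := exists_cocycle_quot g2Code g2CoresCert g2Key
    (fun g k hk => g2Key_mul g (allN_iff g2Cores_fix k hk))
    (fun i _ => ⟨_, enc_g2Elem (fun x hx => by simp [g2All, hx]) i⟩)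
    card_G23 g2Cores_reps g2Cores_keys g2Cores_distinct g2Cores_sub g2Cores_coc
    (x := 486) (y := 100) (Nat.le_of_ble_eq_true (by decide)) (Nat.le_of_ble_eq_true (by decide))
    g2Cores_comm g2Cores_tabx g2Cores_taby g2Cores_val
  obtain ⟨χ, hχ⟩ := exists_char F
  have p₁ : ([(X, Y)].map fun q => ⁅q.1, q.2⁆).prod = 1 := by simpa using hXY
  let f : CentralExt.schurMult G23 →* Multiplicative (ZMod 3) := χ
  have e₁ : f (commElt _ p₁) = Multiplicative.ofAdd (1 : ZMod 3) := by
    show χ _ = _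
    rw [hχ, hv, Nat.cast_one]
    rfl
  have hf : Function.Surjective f := by
    intro y
    obtain ⟨a, rfl⟩ := Multiplicative.ofAdd.surjective y
    refine ⟨commElt _ p₁ ^ a.val, ?_⟩
    rw [map_pow f _ a.val, e₁]
    apply Multiplicative.toAdd.injective
    simp only [toAdd_pow, toAdd_ofAdd, nsmul_one, ZMod.natCast_zmod_val]
  obtain ⟨e⟩ := equiv_of_surjective f hf (by
    rw [Nat.card_congr Multiplicative.toAdd, Nat.card_zmod]
    exact card_schurMult_g2_le)
  exact CentralExt.hasSchurMultiplier_iff.2 ⟨e.symm⟩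

theorem hasCyclicSchurMultiplier_chevG2_three {F : Type*} [Field F] [Fintype F]
    (hF : Fintype.card F = 3) : Cfsg.HasCyclicSchurMultiplier ↥(Cfsg.Lie.chevG2.group F) 3 := by
  haveI : Fact (Nat.Prime 3) := ⟨Nat.prime_three⟩
  obtain ⟨r⟩ : Nonempty (ZMod 3 ≃+* F) :=
    ⟨FiniteField.ringEquivOfCardEq ((ZMod.card 3).trans hF.symm)⟩
  exact CentralExt.hasSchurMultiplier_congr (ChevGrp.groupEquiv chevG2 r) hasCyclicSchurMultiplier_G23

end Cfsg.Agent.SchurSmall
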