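import Cfsg.Agent.SchurSmall.G24Code
import Cfsg.Agent.SchurSmall.AltPullbackCount
import Cfsg.Agent.SchurCert.Trivial
import Cfsg.Agent.SporB.SuzG.Iso
import Cfsg.Agent.ChevGrp.FieldAut
import Mathlib.FieldTheory.Finite.GaloisField

set_option autoImplicit false
set_option maxRecDepth 20000
set_option linter.style.haveILetI false

/-!
The Schur multiplier of the Chevalley group of type `G₂` over four elements.
-/

namespace Cfsg.Agent.SchurSmall.G24

open Matrix Cfsg.Agent.SchurCert Cfsg.Agent.SchurBound Cfsg.Agent.GKTools Cfsg.Agent.GKTools.G2Model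
open scoped commutatorElement

local notation "F4" => Cfsg.Agent.Plane21.F4
local notation "L" => Cfsg.Agent.GKTools.G2Four.L

instance finiteL : Finite L := by
  refine Nat.finite_of_card_ne_zero ?_
  rw [G2Four.card_L]
  norm_num

/-- Codes of elements through a faithful representation. -/
noncomputable def codeOf (ρ : L →* GL (Fin 6) F4) (hinj : Function.Injective ρ) : Code L where
  mul := mulCode
  one := oneCode
  enc g := encM ((ρ g : GL (Fin 6) F4) : Matrix (Fin 6) (Fin 6) F4)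
  enc_one := by rw [map_one, Units.val_one, encM_one]
  enc_mul a b := by rw [map_mul, Units.val_mul, encM_mul]
  enc_inj a b h := hinj (Units.ext (encM_injective h))

theorem exists_elems (ρ : L →* GL (Fin 6) F4) (hinj : Function.Injective ρ)
    (hword : ∀ w : List (ℕ × F4), (∀ p ∈ w, p.1 < 12) →
      ∃ g : L, ((ρ g : GL (Fin 6) F4) : Matrix (Fin 6) (Fin 6) F4) = toM (wordM w))
    {W : List (List (ℕ × ℕ))} {cs : List ℕ} (h : wordsOK W cs = true) :
    ∃ f : ℕ → L, ∀ i, (codeOf ρ hinj).enc (f i) = cs.getD i (codeOf ρ hinj).one := by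
  simp only [wordsOK, Bool.and_eq_true, decide_eq_true_eq, List.all_eq_true, Nat.blt_eq] at h
  obtain ⟨hmap, hlt⟩ := h
  have key : ∀ i, ∃ g : L, (codeOf ρ hinj).enc g = cs.getD i oneCode := by
    intro i
    by_cases hi : i < W.length
    · obtain ⟨g, hg⟩ := hword (wd (W[i])) (fun p hp => by
        obtain ⟨q, hq, rfl⟩ := List.mem_map.1 hp
        exact hlt _ (List.getElem_mem hi) q hq)
      refine ⟨g, ?_⟩
      show encM ((ρ g : GL (Fin 6) F4) : Matrix (Fin 6) (Fin 6) F4) = _
      rw [hg, encM_word, ← hmap, List.getD_eq_getElem _ _ (by simpa using hi), List.getElem_map]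
    · refine ⟨1, ?_⟩
      rw [(codeOf ρ hinj).enc_one, List.getD_eq_default _ _ (by
        rw [← hmap, List.length_map]; exact Nat.le_of_not_lt hi)]
      rfl
  choose f hf using key
  exact ⟨f, hf⟩

theorem exists_applies (ρ : L →* GL (Fin 6) F4) (hinj : Function.Injective ρ)
    (hword : ∀ w : List (ℕ × F4), (∀ p ∈ w, p.1 < 12) →
      ∃ g : L, ((ρ g : GL (Fin 6) F4) : Matrix (Fin 6) (Fin 6) F4) = toM (wordM w))
    (B : BCert) (p N m : ℕ) {W₁ W₂ : List (List (ℕ × ℕ))}
    (h₁ : wordsOK W₁ B.D.gens = true) (h₂ : wordsOK W₂ B.D.gs = true) (hp : p.Prime)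
    (hP : B.D.P.p = p) (hn : B.D.P.p ^ B.D.P.n = N) (hm : 251596800 = N * m) (hpm : ¬ p ∣ m)
    (hchk : B.check mulCode oneCode = true) :
    ∃ gen gsE : ℕ → L, Applies (codeOf ρ hinj) B p gen gsE := by
  obtain ⟨gen, hgen⟩ := exists_elems ρ hinj hword h₁
  obtain ⟨gsE, hgs⟩ := exists_elems ρ hinj hword h₂
  refine ⟨gen, gsE, hp, hP, fun i _ => hgen i, hgs, ?_, hchk⟩
  have hc := hchk
  simp only [BCert.check, Bool.and_eq_true] at hc
  obtain ⟨-, hcard⟩ := card_initGroup_of_groupOK (codeOf ρ hinj) B.D (hP.symm ▸ hp) _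
    (fun i _ => hgen i) hc.1.1.1 hc.1.1.2
  have hL : Nat.card L = 251596800 := by rw [G2Four.card_L]; norm_num
  have h := (initGroup gen B.D.P.n).card_mul_index
  rw [hcard.trans hn, hL, hm] at h
  have hN : 0 < N := by rcases Nat.eq_zero_or_pos N with rfl | h0 <;> omega
  rwa [Nat.eq_of_mul_eq_mul_left hN h]

theorem card_schurMult_le : Nat.card (CentralExt.schurMult L) ≤ 2 := by
  obtain ⟨ρ, hinj, hword⟩ := G2Four.exists_rep
  have hpos : Nat.card (CentralExt.schurMult L) ≠ 0 := Nat.card_pos.ne'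
  refine Nat.le_of_dvd (by norm_num) ?_
  rw [← Nat.factorization_le_iff_dvd hpos (by norm_num)]
  intro p
  by_cases hp : p.Prime
  swap
  · simp [Nat.factorization_eq_zero_of_not_prime _ hp]
  rcases eq_or_ne p 2 with rfl | h2
  · obtain ⟨g₁, e₁, a₁⟩ := exists_applies ρ hinj hword g24RankCert 2 4096 61425 g24Rank_gens
      g24Rank_gs Nat.prime_two rfl (by norm_num [g24RankCert]) (by norm_num) (by norm_num)
      g24Rank_check
    obtain ⟨g₂, e₂, a₂⟩ := exists_applies ρ hinj hword g24ExpCert 2 4096 61425 g24Exp_gens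
      g24Exp_gs Nat.prime_two rfl (by norm_num [g24ExpCert]) (by norm_num) (by norm_num)
      g24Exp_check
    refine (SchurSmall.factorization_schurMult_le (codeOf ρ hinj) (k := 1) (r := 1) a₁ a₂
      rfl rfl le_rfl rfl rfl rfl).trans ?_
    exact (Nat.prime_two.pow_dvd_iff_le_factorization (by norm_num)).1 (by norm_num)
  rcases eq_or_ne p 3 with rfl | h3
  · obtain ⟨g₁, e₁, a₁⟩ := exists_applies ρ hinj hword g24ThreeCert 3 27 9318400 g24Three_gens
      g24Three_gs Nat.prime_three rfl (by norm_num [g24ThreeCert]) (by norm_num) (by norm_num)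
      g24Three_check
    refine (SchurSmall.factorization_schurMult_le (codeOf ρ hinj) (k := 0) (r := 0) a₁ a₁
      rfl rfl le_rfl rfl rfl rfl).trans ?_
    exact Nat.zero_le _
  rcases eq_or_ne p 5 with rfl | h5
  · obtain ⟨g₁, e₁, a₁⟩ := exists_applies ρ hinj hword g24FiveCert 5 25 10063872 g24Five_gens
      g24Five_gs (by norm_num) rfl (by norm_num [g24FiveCert]) (by norm_num) (by norm_num)
      g24Five_check
    refine (SchurSmall.factorization_schurMult_le (codeOf ρ hinj) (k := 0) (r := 0) a₁ a₁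
      rfl rfl le_rfl rfl rfl rfl).trans ?_
    exact Nat.zero_le _
  haveI : Fact p.Prime := ⟨hp⟩
  rw [Nat.factorization_eq_zero_of_not_dvd (not_dvd_schurMult_of_sq_not_dvd p fun hsq => ?_)]
  · exact Nat.zero_le _
  rw [G2Four.card_L] at hsq
  have hdvd : p ∣ 2 ^ 12 * 3 ^ 3 * 5 ^ 2 * (7 * 13) :=
    (dvd_pow_self p two_ne_zero).trans (by rwa [mul_assoc] at hsq)
  rcases hp.dvd_mul.1 hdvd with h | h
  · rcases hp.dvd_mul.1 h with h' | h'
    · rcases hp.dvd_mul.1 h' with h'' | h''
      · exact h2 ((Nat.prime_dvd_prime_iff_eq hp Nat.prime_two).1 (hp.dvd_of_dvd_pow h''))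
      · exact h3 ((Nat.prime_dvd_prime_iff_eq hp Nat.prime_three).1 (hp.dvd_of_dvd_pow h''))
    · exact h5 ((Nat.prime_dvd_prime_iff_eq hp (by norm_num)).1 (hp.dvd_of_dvd_pow h'))
  · have hle : p ≤ 91 := Nat.le_of_dvd (by norm_num) h
    have key : ∀ q < 92, q ∣ 7 * 13 → q ^ 2 ∣ 2 ^ 12 * 3 ^ 3 * 5 ^ 2 * 7 * 13 → q = 1 := by
      decide +kernel
    exact hp.ne_one (key p (by omega) h hsq)

open Cfsg.Agent.CosetCert Cfsg.Agent.CosetEnum in
/-- The subgroup of index 1782 of the presented Suzuki group has a double cover. -/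
theorem exists_stem_two_gSub
    (hperf : commutator SporB.SuzukiHex.gSub = ⊤) :
    ∃ (W : Type) (_ : Group W) (_ : Finite W) (σ : W →* SporB.SuzukiHex.gSub),
      Cfsg.IsStemExtension σ ∧ Nat.card σ.ker = 2 := by
  obtain ⟨φ, hof, -, -, -⟩ :
      ∃ φ : Cfsg.Spor.Suz →* Equiv.Perm (Fin 1782),
        (∀ a, φ (PresentedGroup.of a) =
          (PresData.genPerm SuzukiG.valid a : Equiv.Perm (Fin 1782))) ∧
        ∃ e : Cfsg.Spor.Suz ⧸ (Subgroup.closure {r | r ∈ SuzukiG.gensList}).map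
            (PresentedGroup.mk _) ≃ Fin 1782,
          (∀ g q, e (g • q) = φ g (e q)) ∧
            e ((1 : Cfsg.Spor.Suz) : Cfsg.Spor.Suz ⧸ _) = 0 :=
    enum_spec SuzukiG.valid SuzukiG.word_letters SuzukiG.base_letters
  have hfinG : Finite Cfsg.Spor.Suz := Nat.finite_of_card_ne_zero (by
    rw [CosetEnum.Suzuki.main.2]; norm_num)
  let x : SporB.SuzukiHex.gSub := ⟨SporB.SuzukiHex.letter 3,
    SporB.SuzukiHex.gSub_closure ▸ Subgroup.subset_closure ⟨3, rfl⟩⟩
  have hxx : x * x = 1 := Subtype.ext (by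
    obtain ⟨-, -, grel⟩ := presented_letters SuzukiG.valid
    have h := grel [4, 4] (by decide +kernel)
    simp only [CosetCert.pval, one_mul] at h
    show SporB.SuzukiHex.letter 3 * SporB.SuzukiHex.letter 3 = 1
    rw [SporB.SuzukiHex.letter, PresData.map_act SuzukiG.data (PresentedGroup.mk _)]
    exact h)
  have hval : ∀ i : Fin 1782, (φ x.1 i : ℕ) = SuzukiG.data.run [4] i := by
    intro i
    show (φ (PresentedGroup.mk _ _) i : ℕ) = _
    rw [PresData.map_act SuzukiG.data (PresentedGroup.mk _), PresData.map_act SuzukiG.data φ]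
    rw [show (φ ∘ PresentedGroup.mk _ ∘ FreeGroup.of) = PresData.genPerm SuzukiG.valid from
      funext hof]
    have hle : ((3 : Fin 6) : ℕ) + 1 ≤ SuzukiG.data.cols.length := by decide +kernel
    have h1 : 1 ≤ ((3 : Fin 6) : ℕ) + 1 := Nat.le_add_left 1 _
    erw [PresData.act_genPerm SuzukiG.valid h1 hle]
    exact (PresData.perm_apply SuzukiG.valid h1 hle i).trans rfl
  have hcount : ((Finset.univ : Finset (Fin 1782)).filter
      fun i : Fin 1782 => SuzukiG.data.run [4] i ≠ (i : ℕ)).card = 8 * 217 + 4 := by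
    decide +kernel
  refine exists_stem_two_of_support (m := 1781) hperf (by norm_num)
    (φ.comp SporB.SuzukiHex.gSub.subtype) x hxx 217 ?_
  rw [← hcount]
  refine congrArg Finset.card (Finset.ext fun i => ?_)
  rw [Equiv.Perm.mem_support, Finset.mem_filter, ← hval i]
  simp [Fin.val_inj]

theorem hasCyclicSchurMultiplier_G24 {F : Type*} [Field F] [Fintype F] (hF : Fintype.card F = 4) :
    Cfsg.HasCyclicSchurMultiplier ↥(Cfsg.Lie.chevG2.group F) 2 := by
  obtain ⟨K, iK, fK, hK, ⟨e⟩⟩ := SporB.SuzukiHex.gSub_iso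
  obtain ⟨r⟩ : Nonempty (K ≃+* F) := ⟨FiniteField.ringEquivOfCardEq (hK.trans hF.symm)⟩
  obtain ⟨r'⟩ : Nonempty (F4 ≃+* K) :=
    ⟨FiniteField.ringEquivOfCardEq (Cfsg.Agent.Plane21.F4.card_F4.trans hK.symm)⟩
  let eL : L ≃* SporB.SuzukiHex.gSub := (ChevGrp.groupEquiv Cfsg.Lie.chevG2 r').trans e.symm
  haveI : Finite SporB.SuzukiHex.gSub := Finite.of_equiv _ eL.toEquiv
  have hperfL : commutator L = ⊤ := by
    obtain ⟨hs, hnc⟩ :=
      S1055.result (F := F4) ⟨Cfsg.Agent.Plane21.F4.w, by decide, by decide⟩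
    refine (hs.eq_bot_or_eq_top_of_normal _ inferInstance).resolve_left fun h => hnc ⟨⟨fun a b => ?_⟩⟩
    have hab : ⁅a, b⁆ ∈ commutator L :=
      Subgroup.commutator_mem_commutator (Subgroup.mem_top a) (Subgroup.mem_top b)
    rw [h, Subgroup.mem_bot, commutatorElement_eq_one_iff_mul_comm] at hab
    exact hab
  have hperf : commutator SporB.SuzukiHex.gSub = ⊤ := by
    have h : (commutator L).map eL.toMonoidHom = commutator SporB.SuzukiHex.gSub := by
      rw [commutator_def, Subgroup.map_commutator, Subgroup.map_top_of_surjective _ eL.surjective,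
        ← commutator_def]
    rw [← h, hperfL, Subgroup.map_top_of_surjective _ eL.surjective]
  obtain ⟨W, _, _, σ, hσ, hc⟩ := exists_stem_two_gSub hperf
  haveI : Fact (Nat.Prime 2) := ⟨Nat.prime_two⟩
  haveI : IsCyclic σ.ker := isCyclic_of_prime_card hc
  have hle : Nat.card (CentralExt.schurMult SporB.SuzukiHex.gSub) ≤ 2 := by
    obtain ⟨j⟩ := CentralExt.nonempty_schurMult_congr eL
    rw [← Nat.card_congr j.toEquiv]
    exact card_schurMult_le
  exact CentralExt.hasSchurMultiplier_congr (e.trans (ChevGrp.groupEquiv Cfsg.Lie.chevG2 r))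
    (CentralExt.hasSchurMultiplier_of_stem hσ (hle.trans hc.ge)
      (mulEquivOfCyclicCardEq (by rw [hc, Nat.card_congr Multiplicative.toAdd, Nat.card_zmod])))

end Cfsg.Agent.SchurSmall.G24
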