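import Cfsg.Agent.SchurBound.CoresCert
import Cfsg.Agent.Suzuki.LieModel

set_option autoImplicit false
set_option maxRecDepth 10000
set_option linter.style.haveILetI false

/-!
The field with eight elements and codes for the matrices of Sz(8).
-/

namespace Cfsg.Agent.SchurSmall

open Matrix Cfsg.Agent.SchurCert Cfsg.Agent.SchurBound

/-- The multiplication table of the field with eight elements, modulo `x ^ 3 + x + 1`. -/
def octTable : ℕ := 0x73157889d3f0cfa868356ee0467b98bcbd10fac688000000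

/-- Addition of codes. -/
def octAdd (a b : ℕ) : ℕ := Nat.xor a b

/-- Multiplication of codes. -/
def octMul (a b : ℕ) : ℕ :=
  Nat.land (Nat.shiftRight octTable (Nat.mul 3 (Nat.add (Nat.mul 8 a) b))) 7

theorem octAdd_lt : ∀ a < 8, ∀ b < 8, octAdd a b < 8 := by decide +kernel
theorem octMul_lt : ∀ a < 8, ∀ b < 8, octMul a b < 8 := by decide +kernel

/-- The field with eight elements. -/
structure Oct where
  /-- The code. -/
  v : Fin 8
deriving DecidableEq

namespace Oct

instance : Fintype Oct := Fintype.ofEquiv (Fin 8)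
  ⟨Oct.mk, Oct.v, fun _ => rfl, fun _ => rfl⟩

instance : Add Oct := ⟨fun a b => ⟨⟨octAdd a.v b.v, octAdd_lt _ a.v.2 _ b.v.2⟩⟩⟩
instance : Mul Oct := ⟨fun a b => ⟨⟨octMul a.v b.v, octMul_lt _ a.v.2 _ b.v.2⟩⟩⟩
instance : Zero Oct := ⟨⟨0⟩⟩
instance : One Oct := ⟨⟨1⟩⟩
instance : Neg Oct := ⟨id⟩
instance : Inv Oct := ⟨fun a => a * a * (a * a) * (a * a)⟩

theorem add_assoc' : ∀ a b c : Oct, a + b + c = a + (b + c) := by decide +kernel
theorem add_comm' : ∀ a b : Oct, a + b = b + a := by decide +kernel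
theorem zero_add' : ∀ a : Oct, 0 + a = a := by decide +kernel
theorem neg_add' : ∀ a : Oct, -a + a = 0 := by decide +kernel
theorem mul_assoc' : ∀ a b c : Oct, a * b * c = a * (b * c) := by decide +kernel
theorem mul_comm' : ∀ a b : Oct, a * b = b * a := by decide +kernel
theorem one_mul' : ∀ a : Oct, 1 * a = a := by decide +kernel
theorem left_distrib' : ∀ a b c : Oct, a * (b + c) = a * b + a * c := by decide +kernel
theorem zero_mul' : ∀ a : Oct, 0 * a = 0 := by decide +kernel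
theorem mul_inv' : ∀ a : Oct, a ≠ 0 → a * a⁻¹ = 1 := by decide +kernel

instance : CommRing Oct where
  add_assoc := add_assoc'
  add_comm := add_comm'
  zero_add := zero_add'
  add_zero a := (add_comm' a 0).trans (zero_add' a)
  nsmul := nsmulRec
  zsmul := zsmulRec
  neg_add_cancel := neg_add'
  mul_assoc := mul_assoc'
  mul_comm := mul_comm'
  one_mul := one_mul'
  mul_one a := (mul_comm' a 1).trans (one_mul' a)
  zero_mul := zero_mul'
  mul_zero a := (mul_comm' a 0).trans (zero_mul' a)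
  left_distrib := left_distrib'
  right_distrib a b c := by
    rw [mul_comm' (a + b), left_distrib', mul_comm' c a, mul_comm' c b]

theorem zero_ne_one' : (0 : Oct) ≠ 1 := by decide

instance : Field Oct where
  exists_pair_ne := ⟨0, 1, zero_ne_one'⟩
  mul_inv_cancel := mul_inv'
  inv_zero := by decide +kernel
  nnqsmul := _
  nnqsmul_def := fun _ _ => rfl
  qsmul := _
  qsmul_def := fun _ _ => rfl

theorem card_oct : Fintype.card Oct = 8 := rfl

theorem val_add (a b : Oct) : ((a + b).v : ℕ) = octAdd a.v b.v := rfl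
theorem val_mul (a b : Oct) : ((a * b).v : ℕ) = octMul a.v b.v := rfl

end Oct

/-- An entry of the product of two codes. -/
def octEntry (q r k : ℕ) : ℕ :=
  let i := Nat.div k 4
  let j := Nat.mod k 4
  octAdd (octAdd (octAdd
    (octMul (getC q (Nat.mul 4 i)) (getC r j))
    (octMul (getC q (Nat.add (Nat.mul 4 i) 1)) (getC r (Nat.add 4 j))))
    (octMul (getC q (Nat.add (Nat.mul 4 i) 2)) (getC r (Nat.add 8 j))))
    (octMul (getC q (Nat.add (Nat.mul 4 i) 3)) (getC r (Nat.add 12 j)))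

/-- Multiplication of codes of matrices. -/
def sz8Mul (q r : ℕ) : ℕ := pack (octEntry q r) 16

/-- An entry read row by row. -/
def entryAt (M : Matrix (Fin 4) (Fin 4) Oct) (k : ℕ) : ℕ :=
  (M ⟨k / 4 % 4, Nat.mod_lt _ (by norm_num)⟩ ⟨k % 4, Nat.mod_lt _ (by norm_num)⟩).v

/-- The code of a matrix. -/
def encMat (M : Matrix (Fin 4) (Fin 4) Oct) : ℕ := pack (entryAt M) 16

theorem entryAt_lt (M : Matrix (Fin 4) (Fin 4) Oct) (k : ℕ) : entryAt M k < 8 := Fin.is_lt _

theorem getC_encMat (M : Matrix (Fin 4) (Fin 4) Oct) (i j : Fin 4) :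
    getC (encMat M) (4 * i.1 + j.1) = (M i j).v := by
  rw [encMat, (pack_spec _ 16 fun k _ => lt_of_lt_of_le (entryAt_lt M k) (by norm_num)).2 _
    (by omega)]
  unfold entryAt
  congr
  · omega
  · omega

theorem pack_congr {f g : ℕ → ℕ} : ∀ n, (∀ k < n, f k = g k) → pack f n = pack g n
  | 0, _ => rfl
  | n + 1, h => by
    rw [pack, pack, pack_congr n fun k hk => h k (Nat.lt_succ_of_lt hk), h n (Nat.lt_succ_self n)]

theorem encMat_mul (M N : Matrix (Fin 4) (Fin 4) Oct) :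
    encMat (M * N) = sz8Mul (encMat M) (encMat N) := by
  refine pack_congr 16 fun k hk => ?_
  obtain ⟨i, hi⟩ : ∃ i : Fin 4, i.1 = k / 4 := ⟨⟨k / 4, by omega⟩, rfl⟩
  obtain ⟨j, hj⟩ : ∃ j : Fin 4, j.1 = k % 4 := ⟨⟨k % 4, by omega⟩, rfl⟩
  have e1 : entryAt (M * N) k = (((M * N) i j).v : ℕ) := by
    unfold entryAt
    rw [show (⟨k / 4 % 4, Nat.mod_lt _ (by norm_num)⟩ : Fin 4) = i from Fin.ext (by simp only; omega),
      show (⟨k % 4, Nat.mod_lt _ (by norm_num)⟩ : Fin 4) = j from Fin.ext (by simp only; omega)]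
  have g : ∀ (A : Matrix (Fin 4) (Fin 4) Oct) (a b : Fin 4) (n : ℕ), n = 4 * a.1 + b.1 →
      getC (encMat A) n = (A a b).v := fun A a b n h => h ▸ getC_encMat A a b
  rw [e1, Matrix.mul_apply, Fin.sum_univ_four, Oct.val_add, Oct.val_add, Oct.val_add, Oct.val_mul,
    Oct.val_mul, Oct.val_mul, Oct.val_mul, octEntry]
  simp only [Nat.mul_eq, Nat.add_eq, show Nat.div k 4 = k / 4 from rfl,
    show Nat.mod k 4 = k % 4 from rfl]
  rw [g M i 0 (4 * (k / 4)) (by simp [hi]), g M i 1 (4 * (k / 4) + 1) (by simp [hi]),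
    g M i 2 (4 * (k / 4) + 2) (by simp [hi]), g M i 3 (4 * (k / 4) + 3) (by simp [hi]),
    g N 0 j (k % 4) (by simp [hj]), g N 1 j (4 + k % 4) (by simp [hj]),
    g N 2 j (8 + k % 4) (by simp [hj]), g N 3 j (12 + k % 4) (by simp [hj])]

theorem encMat_inj : Function.Injective encMat := fun M N h => by
  ext i j
  exact congrArg Oct.mk (Fin.ext (by rw [← getC_encMat M i j, h, getC_encMat]))

instance : Cfsg.Agent.Suzuki.SuzukiField Oct 1 := ⟨le_rfl, Oct.card_oct⟩

/-- Sz(8) over the concrete field. -/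
abbrev Sz8 : Subgroup (GL (Fin 4) Oct) := Cfsg.Lie.Sz Oct 4

theorem card_Sz8 : Nat.card Sz8 = 29120 :=
  (Cfsg.Agent.Suzuki.card_lieSz (F := Oct) (m := 1)).trans (by norm_num)

/-- The code of the identity. -/
def sz8One : ℕ := encMat 1

/-- Codes of elements of Sz(8). -/
def sz8Code : Code Sz8 where
  mul := sz8Mul
  one := sz8One
  enc g := encMat (g.1 : GL (Fin 4) Oct).1
  enc_one := rfl
  enc_mul a b := encMat_mul _ _
  enc_inj a b h := Subtype.ext (Units.ext (encMat_inj h))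

/-- The matrix read from a code. -/
def matOfCode (c : ℕ) : Matrix (Fin 4) (Fin 4) Oct :=
  Matrix.of fun i j => ⟨⟨getC c (4 * i.1 + j.1) % 8, Nat.mod_lt _ (by norm_num)⟩⟩

/-- A code of a matrix in Sz(8). -/
def szValid (c : ℕ) : Bool :=
  decide ((matOfCode c)ᵀ * suzukiForm Oct * matOfCode c = suzukiForm Oct) &&
    decide (Cfsg.Lie.star4 (matOfCode c) = (matOfCode c).map fun x => x * x * (x * x)) &&
    Nat.beq (encMat (matOfCode c)) c

theorem exists_of_szValid {c : ℕ} (h : szValid c = true) : ∃ g : Sz8, sz8Code.enc g = c := by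
  simp only [szValid, Bool.and_eq_true, decide_eq_true_eq] at h
  obtain ⟨⟨h1, h2⟩, h3⟩ := h
  set M := matOfCode c
  have hl : suzukiForm Oct * Mᵀ * suzukiForm Oct * M = 1 := by
    rw [Matrix.mul_assoc, Matrix.mul_assoc, ← Matrix.mul_assoc Mᵀ, h1,
      Cfsg.Agent.Suzuki.form_sq]
  let u : GL (Fin 4) Oct := ⟨M, suzukiForm Oct * Mᵀ * suzukiForm Oct, mul_eq_one_comm.1 hl, hl⟩
  refine ⟨⟨u, Subgroup.subset_closure ⟨(Cfsg.Agent.Suzuki.mem_sp4_iff u).2 h1, ?_⟩⟩,
    Nat.eq_of_beq_eq_true h3⟩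
  show Cfsg.Lie.star4 M = M.map fun x => x ^ 4
  rw [h2]
  ext i j
  simp only [Matrix.map_apply]
  ring

/-- The key of a coset: the first column. -/
def sz8Key (q : ℕ) : ℕ :=
  Nat.add (Nat.add (Nat.add (getC q 0) (Nat.mul 32 (getC q 4))) (Nat.mul 1024 (getC q 8)))
    (Nat.mul 32768 (getC q 12))

/-- The first column of the code is that of the identity. -/
def sz8Fix (u : ℕ) : Bool :=
  Nat.beq (getC u 0) 1 && Nat.beq (getC u 4) 0 && Nat.beq (getC u 8) 0 && Nat.beq (getC u 12) 0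

theorem sz8Key_mul (g : Sz8) {u : ℕ} (hu : sz8Fix u = true) :
    sz8Key (sz8Code.mul (sz8Code.enc g) u) = sz8Key (sz8Code.enc g) := by
  simp only [sz8Fix, Bool.and_eq_true] at hu
  obtain ⟨⟨⟨h0, h4⟩, h8⟩, h12⟩ := hu
  replace h0 := Nat.eq_of_beq_eq_true h0
  replace h4 := Nat.eq_of_beq_eq_true h4
  replace h8 := Nat.eq_of_beq_eq_true h8
  replace h12 := Nat.eq_of_beq_eq_true h12
  show sz8Key (sz8Mul (encMat g.1.1) u) = sz8Key (encMat g.1.1)
  set M := g.1.1
  have hlt : ∀ n < 16, getC (encMat M) n < 8 := fun n hn => by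
    rw [encMat, (pack_spec _ 16 fun k _ => lt_of_lt_of_le (entryAt_lt M k) (by norm_num)).2 _ hn]
    exact entryAt_lt M n
  have hid : ∀ a < 8, ∀ b < 8, ∀ c < 8, ∀ d < 8,
      octAdd (octAdd (octAdd (octMul a 1) (octMul b 0)) (octMul c 0)) (octMul d 0) = a := by
    decide +kernel
  have hmul : ∀ n, n < 16 → n % 4 = 0 → getC (sz8Mul (encMat M) u) n = getC (encMat M) n := by
    intro n hn hn4
    have he : ∀ k < 16, octEntry (encMat M) u k < 32 := fun k hk => by
      unfold octEntry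
      exact lt_of_lt_of_le (octAdd_lt _ (octAdd_lt _ (octAdd_lt _ (octMul_lt' _ _) _ (octMul_lt' _ _))
        _ (octMul_lt' _ _)) _ (octMul_lt' _ _)) (by norm_num)
    rw [sz8Mul, (pack_spec _ 16 he).2 _ hn, octEntry]
    simp only [Nat.mul_eq, Nat.add_eq, show Nat.div n 4 = n / 4 from rfl,
      show Nat.mod n 4 = n % 4 from rfl, hn4, Nat.add_zero, h0, h4, h8, h12,
      show 4 * (n / 4) = n by omega]
    exact hid _ (hlt n hn) _ (hlt (n + 1) (by omega)) _ (hlt (n + 2) (by omega)) _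
      (hlt (n + 3) (by omega))
  rw [sz8Key, sz8Key, hmul 0 (by norm_num) rfl, hmul 4 (by norm_num) rfl, hmul 8 (by norm_num) rfl,
    hmul 12 (by norm_num) rfl]
where
  octMul_lt' (a b : ℕ) : octMul a b < 8 := by
    have : octMul a b = Nat.land (octTable >>> (3 * (8 * a + b))) 7 := rfl
    rw [this]
    exact Nat.lt_succ_of_le Nat.and_le_right

end Cfsg.Agent.SchurSmall
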