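import Cfsg.Agent.SchurSmall.Rank
import Cfsg.Agent.SchurSmall.Chars
import Cfsg.Agent.SchurSmall.Sz8Code
import Cfsg.Agent.SchurSmall.Sz8Data
import Cfsg.Agent.SchurCert.Trivial
import Mathlib.FieldTheory.Finite.GaloisField

set_option autoImplicit false
set_option maxRecDepth 20000
set_option maxHeartbeats 800000
set_option linter.style.haveILetI false

/-!
The Schur multiplier of Sz(8).
-/

namespace Cfsg.Agent.SchurSmall

open Cfsg Cfsg.Agent.SchurCert Cfsg.Agent.SchurBound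
open scoped commutatorElement

/-- All codes used. -/
def sz8All : List ℕ :=
  sz8ExpCert.D.gens ++ sz8ExpCert.D.gs ++ sz8RankCert.D.gens ++ sz8RankCert.D.gs ++
    sz8CoresCert.gens ++ [sz8One]

theorem sz8All_valid : sz8All.all szValid = true := by decide +kernel

/-- The element with a given code. -/
noncomputable def elemCode (c : ℕ) : Sz8 :=
  if h : szValid c = true then (exists_of_szValid h).choose else 1

theorem enc_elemCode {L : List ℕ} (hL : ∀ x ∈ L, x ∈ sz8All) (i : ℕ) :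
    sz8Code.enc (elemCode (L.getD i sz8Code.one)) = L.getD i sz8Code.one := by
  have h : szValid (L.getD i sz8Code.one) = true := by
    apply List.all_eq_true.1 sz8All_valid
    by_cases hi : i < L.length
    · rw [List.getD_eq_getElem _ _ hi]; exact hL _ (List.getElem_mem hi)
    · rw [List.getD_eq_default _ _ (Nat.le_of_not_lt hi)]
      show sz8One ∈ sz8All
      simp [sz8All]
  rw [elemCode, dif_pos h]
  exact (exists_of_szValid h).choose_spec

theorem sz8Exp_check : sz8ExpCert.check sz8Mul sz8One = true := by decide +kernel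
theorem sz8Rank_check : sz8RankCert.check sz8Mul sz8One = true := by decide +kernel

theorem appliesSz8 (B : BCert) (hgm : ∀ x ∈ B.D.gens, x ∈ sz8All) (hfm : ∀ x ∈ B.D.gs, x ∈ sz8All)
    (hP : B.D.P.p = 2) (hn : B.D.P.p ^ B.D.P.n = 64) (hchk : B.check sz8Mul sz8One = true) :
    Applies sz8Code B 2 (fun i => elemCode (B.D.gens.getD i sz8Code.one))
      (fun i => elemCode (B.D.gs.getD i sz8Code.one)) := by
  have hgen : ∀ i < B.D.P.n, sz8Code.enc (elemCode (B.D.gens.getD i sz8Code.one)) =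
      B.D.gens.getD i sz8Code.one := fun i _ => enc_elemCode hgm i
  have hc := hchk
  simp only [BCert.check, Bool.and_eq_true] at hc
  obtain ⟨-, hcard⟩ := card_initGroup_of_groupOK sz8Code B.D (hP.symm ▸ Nat.prime_two) _ hgen
    hc.1.1.1 hc.1.1.2
  refine ⟨Nat.prime_two, hP, hgen, enc_elemCode hfm, ?_, hchk⟩
  have h := (initGroup (fun i => elemCode (B.D.gens.getD i sz8Code.one)) B.D.P.n).card_mul_index
  rw [hcard.trans hn, card_Sz8] at h
  omega

theorem card_schurMult_sz8_le : Nat.card (CentralExt.schurMult Sz8) ≤ 4 := by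
  have hpos : Nat.card (CentralExt.schurMult Sz8) ≠ 0 := Nat.card_pos.ne'
  refine Nat.le_of_dvd (by norm_num) ?_
  rw [← Nat.factorization_le_iff_dvd hpos (by norm_num)]
  intro p
  by_cases hp : p.Prime
  swap
  · simp [Nat.factorization_eq_zero_of_not_prime _ hp]
  rcases eq_or_ne p 2 with rfl | h2
  · refine (SchurSmall.factorization_schurMult_le sz8Code (k := 1) (r := 2)
      (appliesSz8 sz8RankCert (fun x hx => by simp [sz8All, hx]) (fun x hx => by simp [sz8All, hx])
        rfl rfl sz8Rank_check)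
      (appliesSz8 sz8ExpCert (fun x hx => by simp [sz8All, hx]) (fun x hx => by simp [sz8All, hx])
        rfl rfl sz8Exp_check)
      rfl rfl le_rfl rfl rfl rfl).trans ?_
    exact (Nat.prime_two.pow_dvd_iff_le_factorization (by norm_num)).1 (by norm_num)
  haveI : Fact p.Prime := ⟨hp⟩
  rw [Nat.factorization_eq_zero_of_not_dvd (not_dvd_schurMult_of_sq_not_dvd p fun hsq => ?_)]
  · exact Nat.zero_le _
  rw [card_Sz8] at hsq
  have hle : p ^ 2 ≤ 29120 := Nat.le_of_dvd (by norm_num) hsq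
  have hlt : p < 171 := by nlinarith
  have key : ∀ q < 171, q ^ 2 ∣ 29120 → q % 2 = 0 ∨ q = 1 := by decide +kernel
  rcases key p hlt hsq with h | h
  · exact h2 ((Nat.prime_dvd_prime_iff_eq Nat.prime_two hp).1 (Nat.dvd_of_mod_eq_zero h)).symm
  · exact hp.ne_one h

theorem sz8Cores_reps : sz8CoresCert.repsOK sz8Mul sz8One = true := by decide +kernel
theorem sz8Cores_rank : sz8CoresCert.rankOK = true := by decide +kernel
theorem sz8Cores_keys : sz8CoresCert.keysOK sz8Key = true := by decide +kernel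
theorem sz8Cores_sub : sz8CoresCert.subOK sz8Mul sz8One = true := by decide +kernel
theorem sz8Cores_tbl : sz8CoresCert.tblOK = true := by decide +kernel
theorem sz8Cores_coc : sz8CoresCert.cocOK = true := by decide +kernel
theorem sz8Cores_coc1 : sz8CoresCert1.cocOK = true := by decide +kernel
theorem sz8Cores_val00 : pairOK sz8CoresCert sz8Mul sz8CoresPair0 1 = true := by decide +kernel
theorem sz8Cores_val01 : pairOK sz8CoresCert sz8Mul sz8CoresPair1 0 = true := by decide +kernel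
theorem sz8Cores_val10 : pairOK sz8CoresCert1 sz8Mul sz8CoresPair0 0 = true := by decide +kernel
theorem sz8Cores_val11 : pairOK sz8CoresCert1 sz8Mul sz8CoresPair1 1 = true := by decide +kernel

theorem sz8Cores_fix : ∀ k < 64, sz8Fix (sz8CoresCert.Uc k) = true := by decide +kernel

theorem exists_cocycle_sz8 (D : LCert) (hn : D.n = 2) (hN : D.N = 64) (hm : D.m = 455)
    (hU : ∀ k < 64, sz8Fix (D.Uc k) = true) (hg : ∀ x ∈ D.gens, x ∈ sz8All)
    (hchk : Checked D sz8Mul sz8One sz8Key) :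
    ∃ F : Cocycle Sz8 2, ∀ (P : Pair) (v : ℕ), pairOK D sz8Mul P v = true →
      ∃ X Y : Sz8, ⁅X, Y⁆ = 1 ∧ sz8Code.enc X = D.Uc P.x ∧
        sz8Code.enc Y = D.Uc P.y ∧ commVal F [(X, Y)] = (v : ZMod 2) := by
  haveI : NeZero D.n := ⟨by omega⟩
  have h := exists_cocycle sz8Code D sz8Key (fun g k hk => sz8Key_mul g (hU k (hN ▸ hk)))
    (fun i _ => ⟨_, enc_elemCode hg i⟩) (by rw [card_Sz8, hm, hN]) hchk
  rw [hn] at h
  exact h

theorem hasSchurMultiplier_Sz8 :
    Cfsg.HasSchurMultiplier Sz8 (Multiplicative (ZMod 2 × ZMod 2)) := by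
  obtain ⟨F₀, h₀⟩ := exists_cocycle_sz8 sz8CoresCert rfl rfl rfl sz8Cores_fix
    (fun x hx => by simp [sz8All, hx])
    ⟨sz8Cores_reps, sz8Cores_rank, sz8Cores_keys, sz8Cores_sub, sz8Cores_tbl, sz8Cores_coc⟩
  obtain ⟨F₁, h₁⟩ := exists_cocycle_sz8 sz8CoresCert1 rfl rfl rfl sz8Cores_fix
    (fun x hx => by simp [sz8All, show x ∈ sz8CoresCert.gens from hx])
    ⟨sz8Cores_reps, sz8Cores_rank, sz8Cores_keys, sz8Cores_sub, sz8Cores_tbl, sz8Cores_coc1⟩
  obtain ⟨χ₀, c₀⟩ := exists_char F₀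
  obtain ⟨χ₁, c₁⟩ := exists_char F₁
  obtain ⟨A, B, hAB, eA, eB, vA⟩ := h₀ _ _ sz8Cores_val00
  obtain ⟨A', B', -, eA', eB', vA'⟩ := h₁ _ _ sz8Cores_val10
  obtain ⟨C, D, hCD, eC, eD, vC⟩ := h₀ _ _ sz8Cores_val01
  obtain ⟨C', D', -, eC', eD', vC'⟩ := h₁ _ _ sz8Cores_val11
  obtain rfl : A' = A := sz8Code.enc_inj (eA'.trans eA.symm)
  obtain rfl : B' = B := sz8Code.enc_inj (eB'.trans eB.symm)
  obtain rfl : C' = C := sz8Code.enc_inj (eC'.trans eC.symm)
  obtain rfl : D' = D := sz8Code.enc_inj (eD'.trans eD.symm)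
  have p₁ : ([(A', B')].map fun q => ⁅q.1, q.2⁆).prod = 1 := by simpa using hAB
  have p₂ : ([(C', D')].map fun q => ⁅q.1, q.2⁆).prod = 1 := by simpa using hCD
  let f : CentralExt.schurMult Sz8 →* Multiplicative (ZMod 2 × ZMod 2) :=
    { toFun := fun m => Multiplicative.ofAdd ((χ₀ m).toAdd, (χ₁ m).toAdd)
      map_one' := by simp only [map_one]; rfl
      map_mul' := fun a b => by simp only [map_mul]; rfl }
  have e₁ : f (commElt _ p₁) = Multiplicative.ofAdd ((1 : ZMod 2), (0 : ZMod 2)) := by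
    show Multiplicative.ofAdd ((χ₀ _).toAdd, (χ₁ _).toAdd) = _
    simp only [c₀, c₁, toAdd_ofAdd, vA, vA', Nat.cast_one, Nat.cast_zero]
  have e₂ : f (commElt _ p₂) = Multiplicative.ofAdd ((0 : ZMod 2), (1 : ZMod 2)) := by
    show Multiplicative.ofAdd ((χ₀ _).toAdd, (χ₁ _).toAdd) = _
    simp only [c₀, c₁, toAdd_ofAdd, vC, vC', Nat.cast_one, Nat.cast_zero]
  have hf : Function.Surjective f := by
    intro y
    obtain ⟨⟨a, b⟩, rfl⟩ := Multiplicative.ofAdd.surjective y
    refine ⟨commElt _ p₁ ^ a.val * commElt _ p₂ ^ b.val, ?_⟩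
    rw [map_mul, map_pow f _ a.val, map_pow f _ b.val, e₁, e₂]
    apply Multiplicative.toAdd.injective
    simp only [toAdd_mul, toAdd_pow, toAdd_ofAdd, Prod.smul_mk, smul_zero, nsmul_one,
      ZMod.natCast_zmod_val, Prod.mk_add_mk, add_zero, zero_add]
  obtain ⟨e⟩ := equiv_of_surjective f hf (by
    rw [Nat.card_congr Multiplicative.toAdd, Nat.card_prod, Nat.card_zmod]
    exact card_schurMult_sz8_le)
  exact CentralExt.hasSchurMultiplier_iff.2 ⟨e.symm⟩

theorem sp4_map {A B : Type*} [Field A] [Field B] (e : A ≃+* B) (g : GL (Fin 4) A)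
    (hg : g ∈ Cfsg.Lie.Sp4 A) (h : GL (Fin 4) B)
    (hh : (h : Matrix (Fin 4) (Fin 4) B) = (g : Matrix (Fin 4) (Fin 4) A).map e) :
    h ∈ Cfsg.Lie.Sp4 B := by
  intro u v
  have hd := congrArg e (hg (e.symm ∘ u) (e.symm ∘ v))
  show Cfsg.Lie.altForm4 (Matrix.mulVec (h : Matrix (Fin 4) (Fin 4) B) u)
    (Matrix.mulVec (h : Matrix (Fin 4) (Fin 4) B) v) = _
  simp only [Cfsg.Lie.altForm4, Units.coeHom_apply, Matrix.mulVec, dotProduct, Fin.sum_univ_four,
    map_add, map_mul, Function.comp_apply, RingEquiv.apply_symm_apply] at hd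
  simpa only [Cfsg.Lie.altForm4, Matrix.mulVec, dotProduct, Fin.sum_univ_four, hh,
    Matrix.map_apply] using hd

theorem star4_map {A B : Type*} [Field A] [Field B] (e : A ≃+* B) {n : ℕ}
    (M : Matrix (Fin 4) (Fin 4) A) (hM : Cfsg.Lie.star4 M = M.map (fun x => x ^ n)) :
    Cfsg.Lie.star4 (M.map e) = (M.map e).map (fun x => x ^ n) := by
  ext p r
  have := congrArg e (congrFun (congrFun hM p) r)
  simpa [Cfsg.Lie.star4, map_sub, map_mul, map_pow] using this

theorem map_lieSz {K F : Type*} [Field K] [Field F] (e : K ≃+* F) (n : ℕ) :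
    (Cfsg.Lie.Sz K n).map ((Units.mapEquiv (RingEquiv.mapMatrix e).toMulEquiv :
      GL (Fin 4) K ≃* GL (Fin 4) F) : GL (Fin 4) K →* GL (Fin 4) F) = Cfsg.Lie.Sz F n := by
  show (Subgroup.closure _).map _ = Subgroup.closure _
  rw [MonoidHom.map_closure]
  congr 1
  ext h
  constructor
  · rintro ⟨g, ⟨hg1, hg2⟩, rfl⟩
    exact ⟨sp4_map e g hg1 _ rfl, star4_map e _ hg2⟩
  · rintro ⟨h1, h2⟩
    refine ⟨(Units.mapEquiv (RingEquiv.mapMatrix e).toMulEquiv).symm h, ⟨?_, ?_⟩,
      MulEquiv.apply_symm_apply _ h⟩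
    · exact sp4_map e.symm h h1 _ rfl
    · exact star4_map e.symm _ h2

theorem hasSchurMultiplier_lieSz {F : Type*} [Field F] [Fintype F] (hF : Fintype.card F = 8) :
    Cfsg.HasSchurMultiplier (Cfsg.Lie.Sz F 4) (Multiplicative (ZMod 2 × ZMod 2)) := by
  obtain ⟨e⟩ : Nonempty (Oct ≃+* F) := ⟨FiniteField.ringEquivOfCardEq (Oct.card_oct.trans hF.symm)⟩
  exact CentralExt.hasSchurMultiplier_congr
    (((Units.mapEquiv (RingEquiv.mapMatrix e).toMulEquiv).subgroupMap (Cfsg.Lie.Sz Oct 4)).trans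
      (MulEquiv.subgroupCongr (map_lieSz e 4)))
    hasSchurMultiplier_Sz8

end Cfsg.Agent.SchurSmall
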