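import Cfsg.Agent.SchurBound.CoresCert

set_option autoImplicit false

/-!
Corestriction of a cocycle on a subgroup that comes from a small quotient of it. No table of the
subgroup is stored: only its generators act.
-/

namespace Cfsg.Agent.SchurSmall

open Cfsg.Agent.SchurCert Cfsg.Agent.SchurBound
open scoped commutatorElement

universe v

/-- A binary tree of numbers. -/
inductive Tr where
  /-- A number. -/
  | leaf (v : ℕ)
  /-- The entries at even and at odd places. -/
  | node (l r : Tr)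

/-- Read an entry of a tree. -/
def Tr.get : Tr → ℕ → ℕ
  | .leaf v, _ => v
  | .node l r, i => bif Nat.beq (Nat.land i 1) 0 then l.get (Nat.shiftRight i 1)
      else r.get (Nat.shiftRight i 1)

/-- The data. -/
structure QCert where
  /-- The number of cosets. -/
  m : ℕ
  /-- The order of the subgroup. -/
  N : ℕ
  /-- The order of the quotient. -/
  Q : ℕ
  /-- The modulus. -/
  n : ℕ
  /-- The width of a code. -/
  wc : ℕ
  /-- The width of a coset number. -/
  wi : ℕ
  /-- The width of a subgroup number. -/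
  wu : ℕ
  /-- The width of a quotient number. -/
  wq : ℕ
  /-- The codes of generators. -/
  gens : List ℕ
  /-- The numbers in the subgroup of those generators that generate it. -/
  ugi : List (ℕ × ℕ)
  /-- The codes of the representatives, in blocks. -/
  T : List ℕ
  /-- The parents of the representatives. -/
  tpar : ℕ
  /-- The generators leading from the parents. -/
  tgen : ℕ
  /-- The ranks by keys. -/
  rank : ℕ
  /-- The representatives sorted by keys. -/
  srt : ℕ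
  /-- The codes of the subgroup, in blocks. -/
  U : List ℕ
  /-- The ranks of the subgroup by codes. -/
  rankU : ℕ
  /-- The subgroup sorted by codes. -/
  srtU : ℕ
  /-- Each element of the subgroup is an earlier one times a listed generator. -/
  upar : List (ℕ × ℕ)
  /-- Right multiplication by the generators. -/
  mg : ℕ
  /-- The map to the quotient. -/
  qd : ℕ
  /-- The rows of the table of the quotient. -/
  qm : Tr
  /-- The rows of the cocycle on the quotient. -/
  g : Tr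

theorem allN_intro {p : ℕ → Bool} : ∀ {n : ℕ}, (∀ i < n, p i = true) → allN p n = true
  | 0, _ => rfl
  | n + 1, h => by
    show (p n && allN p n) = true
    rw [h n n.lt_succ_self, allN_intro fun i hi => h i (Nat.lt_succ_of_lt hi)]
    rfl

namespace QCert

variable (D : QCert) (mul : ℕ → ℕ → ℕ) (one : ℕ) (key : ℕ → ℕ)

/-- The code of a representative. -/
def Tc (i : ℕ) : ℕ := getP D.wc D.T i

/-- The code of an element of the subgroup. -/
def Uc (k : ℕ) : ℕ := getP D.wc D.U k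

/-- Right multiplication by a generator. -/
def mgv (k e : ℕ) : ℕ := getN D.wu D.mg (Nat.add (Nat.mul k D.ugi.length) e)

/-- The image in the quotient. -/
def qv (k : ℕ) : ℕ := getN D.wq D.qd k

/-- The product in the quotient. -/
def qmv (a b : ℕ) : ℕ := getN D.wq (D.qm.get a) b

/-- The cocycle on the quotient. -/
def gv (a b : ℕ) : ℕ := getN 2 (D.g.get a) b

/-- The representatives are products of generators. -/
def repsOK : Bool :=
  allN (fun i =>
    bif Nat.beq i 0 then Nat.beq (D.Tc 0) one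
    else
      let pa := getN D.wi D.tpar i
      let g := getN 8 D.tgen i
      Nat.blt pa i && Nat.blt g D.gens.length &&
        Nat.beq (D.Tc i) (mul (D.gens.getD g one) (D.Tc pa))) D.m

/-- The keys of the sorted representatives increase. -/
def keysOK : Bool :=
  allN (fun i =>
    Nat.blt (getN D.wi D.rank i) D.m && Nat.beq (getN D.wi D.srt (getN D.wi D.rank i)) i) D.m &&
  allN (fun j =>
    Nat.blt (key (D.Tc (getN D.wi D.srt j))) (key (D.Tc (getN D.wi D.srt (j + 1))))) (D.m - 1)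

/-- The elements of the subgroup are distinct. -/
def distinctOK : Bool :=
  allN (fun i =>
    Nat.blt (getN D.wu D.rankU i) D.N &&
      Nat.beq (getN D.wu D.srtU (getN D.wu D.rankU i)) i) D.N &&
  allN (fun j =>
    Nat.blt (D.Uc (getN D.wu D.srtU j)) (D.Uc (getN D.wu D.srtU (j + 1)))) (D.N - 1)

/-- The subgroup. -/
def subOK : Bool :=
  Nat.blt 0 D.N && Nat.beq (D.Uc 0) one && Nat.beq (D.qv 0) 0 &&
  (D.ugi.all fun e => Nat.blt e.1 D.gens.length && Nat.blt e.2 D.N &&
    Nat.beq (D.Uc e.2) (D.gens.getD e.1 one)) &&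
  allN (fun k => Nat.beq k 0 ||
    (let e := D.upar.getD k (0, 0)
     Nat.blt e.1 k && Nat.blt e.2 D.ugi.length && Nat.beq k (D.mgv e.1 e.2))) D.N &&
  allN (fun k => Nat.blt (D.qv k) D.Q && allN (fun e =>
    Nat.blt (D.mgv k e) D.N &&
      Nat.beq (mul (D.Uc k) (D.Uc (D.ugi.getD e (0, 0)).2)) (D.Uc (D.mgv k e)) &&
      Nat.beq (D.qv (D.mgv k e)) (D.qmv (D.qv k) (D.qv (D.ugi.getD e (0, 0)).2))) D.ugi.length) D.N

/-- The quotient and the cocycle on it. -/
def cocRow (a : ℕ) : Bool :=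
  Nat.beq (D.qmv a 0) a &&
    Nat.beq (Nat.mod (D.gv 0 a) D.n) 0 && Nat.beq (Nat.mod (D.gv a 0) D.n) 0 &&
    allN (fun b => D.ugi.all fun e =>
      Nat.beq (D.qmv (D.qmv a b) (D.qv e.2)) (D.qmv a (D.qmv b (D.qv e.2))) &&
      Nat.beq (Nat.mod (Nat.add (D.gv a b) (D.gv (D.qmv a b) (D.qv e.2))) D.n)
        (Nat.mod (Nat.add (D.gv a (D.qmv b (D.qv e.2))) (D.gv b (D.qv e.2))) D.n)) D.Q

/-- The checks for a range of rows. -/
def cocFrom (lo k : ℕ) : Bool := allN (fun i => D.cocRow (Nat.add lo i)) k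

/-- All rows. -/
def cocOK : Bool := allN D.cocRow D.Q

theorem cocOK_of_from (w : ℕ) (hw : 0 < w) (h : ∀ c, c * w < D.Q → D.cocFrom (c * w) w = true ∨
    D.cocFrom (c * w) (D.Q - c * w) = true) : D.cocOK = true := by
  refine allN_intro fun a ha => ?_
  have h1 := Nat.div_add_mod a w
  have h2 := Nat.mod_lt a hw
  rw [mul_comm] at h1
  rcases h (a / w) (by omega) with h' | h'
  · have := allN_iff h' (a % w) h2
    rwa [Nat.add_eq, h1] at this
  · have := allN_iff h' (a % w) (by omega)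
    rwa [Nat.add_eq, h1] at this

/-- A table of the action is correct. -/
def tabOK (x p u : ℕ) : Bool :=
  allN (fun i =>
    Nat.blt (getN D.wi p i) D.m && Nat.blt (getN D.wu u i) D.N &&
      Nat.beq (mul (D.Uc x) (D.Tc i)) (mul (D.Tc (getN D.wi p i)) (D.Uc (getN D.wu u i)))) D.m

/-- The sum over the cosets. -/
def coresSum (ua pb ub : ℕ) : ℕ :=
  sumN (fun i => D.gv (D.qv (getN D.wu ua (getN D.wi pb i))) (D.qv (getN D.wu ub i))) D.m

end QCert

theorem lt_of_increasing (f : ℕ → ℕ) (n : ℕ) (h : ∀ j < n - 1, f j < f (j + 1)) :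
    ∀ b < n, ∀ a < b, f a < f b := by
  intro b
  induction b with
  | zero => intro _ a ha; omega
  | succ b ih =>
    intro hb a ha
    have hs := h b (by omega)
    rcases Nat.lt_or_eq_of_le (Nat.le_of_lt_succ ha) with hlt | rfl
    · exact (ih (by omega) a hlt).trans hs
    · exact hs

theorem eq_of_ranked (f : ℕ → ℕ) (r s : ℕ → ℕ) (n : ℕ) (hr : ∀ i < n, r i < n ∧ s (r i) = i)
    (h : ∀ j < n - 1, f (s j) < f (s (j + 1))) {i j : ℕ} (hi : i < n) (hj : j < n) (he : f i = f j) :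
    i = j := by
  rw [← (hr i hi).2, ← (hr j hj).2] at he ⊢
  rcases lt_trichotomy (r i) (r j) with hlt | heq | hlt
  · exact absurd he (lt_of_increasing (fun a => f (s a)) n h _ (hr j hj).1 _ hlt).ne
  · rw [heq]
  · exact absurd he (lt_of_increasing (fun a => f (s a)) n h _ (hr i hi).1 _ hlt).ne'

/-- A checked certificate gives a cocycle with a prescribed value at a commuting pair. -/
theorem exists_cocycle_quot {G : Type v} [Group G] [Finite G] (C : Code G)
    (D : QCert) [NeZero D.n] (key : ℕ → ℕ)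
    (hkey : ∀ (g : G) (k : ℕ), k < D.N → key (C.mul (C.enc g) (D.Uc k)) = key (C.enc g))
    (hgens : ∀ i < D.gens.length, ∃ g : G, C.enc g = D.gens.getD i C.one)
    (hcard : Nat.card G = D.m * D.N) (hreps : D.repsOK C.mul C.one = true)
    (hkeys : D.keysOK key = true) (hdist : D.distinctOK = true) (hsub : D.subOK C.mul C.one = true)
    (hcoc : D.cocOK = true) {x y px ux py uy v : ℕ} (hx : x < D.N) (hy : y < D.N)
    (hcomm : Nat.beq (C.mul (D.Uc x) (D.Uc y)) (C.mul (D.Uc y) (D.Uc x)) = true)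
    (htx : D.tabOK C.mul x px ux = true) (hty : D.tabOK C.mul y py uy = true)
    (hv : Nat.beq (Nat.mod (D.coresSum ux py uy) D.n)
      (Nat.mod (Nat.add (D.coresSum uy px ux) v) D.n) = true) :
    ∃ (F : Cocycle G D.n) (X Y : G), ⁅X, Y⁆ = 1 ∧ commVal F [(X, Y)] = (v : ZMod D.n) := by
  simp only [QCert.subOK, Bool.and_eq_true, Nat.blt_eq] at hsub
  obtain ⟨⟨⟨⟨⟨hN, hU0⟩, hq0⟩, hugi'⟩, hupar'⟩, hmg'⟩ := hsub
  have hU0' : D.Uc 0 = C.one := Nat.eq_of_beq_eq_true hU0
  have hq0' : D.qv 0 = 0 := Nat.eq_of_beq_eq_true hq0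
  have hugi : ∀ e ∈ D.ugi, (e.1 < D.gens.length ∧ e.2 < D.N) ∧
      D.Uc e.2 = D.gens.getD e.1 C.one := by
    intro e he
    have h := List.all_eq_true.1 hugi' e he
    simp only [Bool.and_eq_true, Nat.blt_eq] at h
    exact ⟨h.1, Nat.eq_of_beq_eq_true h.2⟩
  let u' : ℕ → ℕ := fun e => (D.ugi.getD e (0, 0)).2
  have hmem : ∀ e < D.ugi.length, D.ugi.getD e (0, 0) ∈ D.ugi := fun e he => by
    rw [List.getD_eq_getElem _ _ he]; exact List.getElem_mem he
  have hupar : ∀ k < D.N, k = 0 ∨ ((D.upar.getD k (0, 0)).1 < k ∧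
      (D.upar.getD k (0, 0)).2 < D.ugi.length) ∧
        k = D.mgv (D.upar.getD k (0, 0)).1 (D.upar.getD k (0, 0)).2 := by
    intro k hk
    simpa [and_assoc] using allN_iff hupar' k hk
  have hmg : ∀ k < D.N, D.qv k < D.Q ∧ ∀ e < D.ugi.length, D.mgv k e < D.N ∧
      C.mul (D.Uc k) (D.Uc (u' e)) = D.Uc (D.mgv k e) ∧
      D.qv (D.mgv k e) = D.qmv (D.qv k) (D.qv (u' e)) := by
    intro k hk
    have h := allN_iff hmg' k hk
    simp only [Bool.and_eq_true, Nat.blt_eq] at h
    refine ⟨h.1, fun e he => ?_⟩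
    have h' := allN_iff h.2 e he
    simp only [Bool.and_eq_true, Nat.blt_eq] at h'
    exact ⟨h'.1.1, Nat.eq_of_beq_eq_true h'.1.2, Nat.eq_of_beq_eq_true h'.2⟩
  have hq : ∀ k < D.N, D.qv k < D.Q := fun k hk => (hmg k hk).1
  have hcoc' : ∀ a < D.Q, D.qmv a 0 = a ∧ (D.gv 0 a : ZMod D.n) = 0 ∧ (D.gv a 0 : ZMod D.n) = 0 ∧
      ∀ b < D.Q, ∀ e ∈ D.ugi, D.qmv (D.qmv a b) (D.qv e.2) = D.qmv a (D.qmv b (D.qv e.2)) ∧
        (D.gv a b : ZMod D.n) + (D.gv (D.qmv a b) (D.qv e.2) : ZMod D.n) =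
          (D.gv a (D.qmv b (D.qv e.2)) : ZMod D.n) + (D.gv b (D.qv e.2) : ZMod D.n) := by
    intro a ha
    have h := allN_iff hcoc a ha
    simp only [QCert.cocRow] at h
    simp only [Bool.and_eq_true] at h
    obtain ⟨⟨⟨h1, h2⟩, h3⟩, h4⟩ := h
    have hz : ∀ z : ℕ, Nat.beq (Nat.mod z D.n) 0 = true → (z : ZMod D.n) = 0 := fun z hz => by
      rw [← ZMod.natCast_mod, show z % D.n = 0 from Nat.eq_of_beq_eq_true hz, Nat.cast_zero]
    refine ⟨Nat.eq_of_beq_eq_true h1, hz _ h2, hz _ h3, fun b hb e he => ?_⟩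
    have h5 := List.all_eq_true.1 (allN_iff h4 b hb) e he
    simp only [Bool.and_eq_true] at h5
    refine ⟨Nat.eq_of_beq_eq_true h5.1, ?_⟩
    rw [← Nat.cast_add, ← Nat.cast_add, ← ZMod.natCast_mod,
      show (D.gv a b + D.gv (D.qmv a b) (D.qv e.2)) % D.n = _ from Nat.eq_of_beq_eq_true h5.2]
    exact ZMod.natCast_mod _ _
  have hU : ∀ k < D.N, ∃ g : G, C.enc g = D.Uc k := by
    intro k
    induction k using Nat.strong_induction_on with
    | _ k ih =>
      intro hk
      rcases hupar k hk with h0 | ⟨⟨h1, h2⟩, h3⟩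
      · exact ⟨1, by rw [h0, hU0', C.enc_one]⟩
      · obtain ⟨g, hg⟩ := ih _ h1 (h1.trans hk)
        obtain ⟨⟨hl, -⟩, he⟩ := hugi _ (hmem _ h2)
        obtain ⟨g', hg'⟩ := hgens _ hl
        refine ⟨g * g', ?_⟩
        rw [C.enc_mul, hg, hg', ← he, ((hmg _ (h1.trans hk)).2 _ h2).2.1, ← h3]
  have hT : ∀ i < D.m, ∃ g : G, C.enc g = D.Tc i := by
    intro i
    induction i using Nat.strong_induction_on with
    | _ i ih =>
      intro hi
      have h := allN_iff hreps i hi
      rcases Nat.eq_zero_or_pos i with rfl | hpos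
      · simp only [Nat.beq_refl, cond_true] at h
        exact ⟨1, C.enc_one.trans (Nat.eq_of_beq_eq_true h).symm⟩
      · have e0 : Nat.beq i 0 = false := by
          cases hb : Nat.beq i 0
          · rfl
          · exact absurd (Nat.eq_of_beq_eq_true hb) (by omega)
        simp only [e0, cond_false, Bool.and_eq_true, Nat.blt_eq] at h
        obtain ⟨⟨h1, h2⟩, h3⟩ := h
        obtain ⟨g, hg⟩ := ih _ h1 (h1.trans hi)
        obtain ⟨g', hg'⟩ := hgens _ h2
        exact ⟨g' * g, by rw [C.enc_mul, hg, hg', Nat.eq_of_beq_eq_true h3]⟩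
  choose Tf hTf using fun i : Fin D.m => hT i i.2
  choose Uf hUf using fun k : Fin D.N => hU k k.2
  obtain ⟨hk1, hk2⟩ := Bool.and_eq_true_iff.1 hkeys
  have hTinj : ∀ i j : Fin D.m, key (D.Tc i) = key (D.Tc j) → i = j := fun i j h =>
    Fin.ext (eq_of_ranked (fun a => key (D.Tc a)) (getN D.wi D.rank) (getN D.wi D.srt) D.m
      (fun a ha => by simpa using allN_iff hk1 a ha) (fun a ha => by simpa using allN_iff hk2 a ha)
      i.2 j.2 h)
  obtain ⟨hd1, hd2⟩ := Bool.and_eq_true_iff.1 hdist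
  have hUfi : ∀ k l : Fin D.N, Uf k = Uf l → k = l := fun k l h =>
    Fin.ext (eq_of_ranked D.Uc (getN D.wu D.rankU) (getN D.wu D.srtU) D.N
      (fun a ha => by simpa using allN_iff hd1 a ha) (fun a ha => by simpa using allN_iff hd2 a ha)
      k.2 l.2 (by rw [← hUf, ← hUf, h]))
  have hinj : Function.Injective fun q : Fin D.m × Fin D.N => Tf q.1 * Uf q.2 := by
    rintro ⟨i, k⟩ ⟨j, l⟩ h
    have he : C.mul (D.Tc i) (D.Uc k) = C.mul (D.Tc j) (D.Uc l) := by
      rw [← hTf, ← hUf, ← hTf, ← hUf, ← C.enc_mul, ← C.enc_mul]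
      exact congrArg C.enc h
    have hk := congrArg key he
    rw [← hTf, ← hTf, hkey _ _ k.2, hkey _ _ l.2, hTf, hTf] at hk
    obtain rfl := hTinj i j hk
    obtain rfl := hUfi k l (mul_left_cancel h)
    rfl
  have hbij : Function.Bijective fun q : Fin D.m × Fin D.N => Tf q.1 * Uf q.2 :=
    (Nat.bijective_iff_injective_and_card _).2 ⟨hinj, by
      rw [Nat.card_prod, Nat.card_fin, Nat.card_fin, hcard]⟩
  let e : Fin D.N := ⟨0, hN⟩
  have hUe : Uf e = 1 := C.enc_inj (by rw [hUf, C.enc_one]; exact hU0')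
  have hUg : ∀ (k : Fin D.N) (a : ℕ) (ha : a < D.ugi.length),
      Uf k * Uf ⟨u' a, (hugi _ (hmem a ha)).1.2⟩ = Uf ⟨D.mgv k a, ((hmg k k.2).2 a ha).1⟩ :=
    fun k a ha => C.enc_inj (by rw [C.enc_mul, hUf, hUf, hUf]; exact ((hmg k k.2).2 a ha).2.1)
  have hprod : ∀ (l : ℕ) (hl : l < D.N) (k : Fin D.N), ∃ j : Fin D.N,
      Uf k * Uf ⟨l, hl⟩ = Uf j ∧ D.qv j = D.qmv (D.qv k) (D.qv l) := by
    intro l
    induction l using Nat.strong_induction_on with
    | _ l ih =>
      intro hl k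
      rcases hupar l hl with h0 | ⟨⟨h1, h2⟩, h3⟩
      · subst h0
        refine ⟨k, by rw [show (⟨0, hl⟩ : Fin D.N) = e from rfl, hUe, mul_one], ?_⟩
        rw [hq0', (hcoc' _ (hq k k.2)).1]
      · set p := (D.upar.getD l (0, 0)).1
        set a := (D.upar.getD l (0, 0)).2
        have hp : p < D.N := h1.trans hl
        obtain ⟨j, hj, hjq⟩ := ih p h1 hp k
        refine ⟨⟨D.mgv j a, ((hmg j j.2).2 a h2).1⟩, ?_, ?_⟩
        · rw [← hUg j a h2, ← hj, mul_assoc, hUg ⟨p, hp⟩ a h2]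
          congr 2
          exact Fin.ext h3
        · show D.qv (D.mgv j a) = _
          rw [((hmg j j.2).2 a h2).2.2, hjq,
            ((hcoc' _ (hq k k.2)).2.2.2 _ (hq p hp) _ (hmem a h2)).1, ← ((hmg p hp).2 a h2).2.2, ← h3]
  choose mt hmt hmtq using fun (k l : Fin D.N) => hprod l l.2 k
  let K : Cosets G D.m D.N :=
    { T := Tf, U := Uf, mt := mt, e := e, U_e := hUe, U_mul := hmt, bij := hbij }
  have hassoc : ∀ a b d, mt (mt a b) d = mt a (mt b d) := fun a b d => hUfi _ _ (by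
    rw [← hmt, ← hmt, ← hmt, ← hmt, mul_assoc])
  let f : Fin D.N → Fin D.N → ZMod D.n := fun k l => (D.gv (D.qv k) (D.qv l) : ZMod D.n)
  have h0 : ∀ k, f e k = 0 := fun k => by
    show (D.gv (D.qv 0) (D.qv k) : ZMod D.n) = 0
    rw [hq0']; exact (hcoc' _ (hq k k.2)).2.1
  have h0' : ∀ k, f k e = 0 := fun k => by
    show (D.gv (D.qv k) (D.qv 0) : ZMod D.n) = 0
    rw [hq0']; exact (hcoc' _ (hq k k.2)).2.2.1
  have hmte : ∀ k, mt k e = k := fun k => hUfi _ _ (by rw [← hmt, hUe, mul_one])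
  have hgenc : ∀ (a b : Fin D.N) (i : ℕ) (hi : i < D.ugi.length),
      f a b + f (mt a b) ⟨u' i, (hugi _ (hmem i hi)).1.2⟩ =
        f a (mt b ⟨u' i, (hugi _ (hmem i hi)).1.2⟩) + f b ⟨u' i, (hugi _ (hmem i hi)).1.2⟩ := by
    intro a b i hi
    show (D.gv _ _ : ZMod D.n) + (D.gv _ _ : ZMod D.n) = (D.gv _ _ : ZMod D.n) + (D.gv _ _ : ZMod D.n)
    rw [hmtq, hmtq]
    exact ((hcoc' _ (hq a a.2)).2.2.2 _ (hq b b.2) _ (hmem i hi)).2
  have hf : ∀ a b d, f a b + f (mt a b) d = f a (mt b d) + f b d := by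
    suffices H : ∀ k, ∀ d : Fin D.N, (d : ℕ) = k →
        ∀ a b, f a b + f (mt a b) d = f a (mt b d) + f b d from fun a b d => H d d rfl a b
    intro k
    induction k using Nat.strong_induction_on with
    | _ k ih =>
      intro d hd a b
      subst hd
      rcases hupar d d.2 with hd0 | ⟨⟨h1, h2⟩, h3⟩
      · obtain rfl : d = e := Fin.ext hd0
        rw [h0', h0', hmte]
      · let c' : Fin D.N := ⟨_, h1.trans d.2⟩
        let g' : Fin D.N := ⟨_, (hugi _ (hmem _ h2)).1.2⟩
        have hd : d = mt c' g' := hUfi _ _ (by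
          rw [← hmt]
          exact ((hUg c' _ h2).trans (congrArg Uf (Fin.ext h3.symm))).symm)
        have P1 := ih c' h1 c' rfl
        have P2 := fun a b => hgenc a b _ h2
        rw [hd]
        have e1 := P2 (mt a b) c'
        have e2 := P2 b c'
        have e3 := P2 a (mt b c')
        rw [hassoc a b c'] at e1
        rw [← hassoc b c' g']
        linear_combination P1 a b - e1 + e2 + e3
  let F := K.cores f hf h0 h0'
  let X : G := Uf ⟨x, hx⟩
  let Y : G := Uf ⟨y, hy⟩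
  have hXY : ⁅X, Y⁆ = 1 := by
    rw [commutatorElement_eq_one_iff_mul_comm]
    apply C.enc_inj
    rw [C.enc_mul, C.enc_mul, hUf, hUf]
    exact Nat.eq_of_beq_eq_true hcomm
  have htab : ∀ (a : Fin D.N) (p u : ℕ), D.tabOK C.mul a p u = true → ∀ i : Fin D.m,
      ((K.act (Uf a) i : Fin D.m) : ℕ) = getN D.wi p i ∧
        ((K.sub (Uf a) i : Fin D.N) : ℕ) = getN D.wu u i := by
    intro a p u ht i
    have h := allN_iff ht i i.2
    simp only [Bool.and_eq_true, Nat.blt_eq] at h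
    obtain ⟨⟨h1, h2⟩, h3⟩ := h
    obtain ⟨ha, hu⟩ := K.act_sub_eq (g := Uf a) (i := i) (j := ⟨_, h1⟩) (k := ⟨_, h2⟩)
      (C.enc_inj (by
        show C.enc (Uf a * Tf i) = C.enc (Tf _ * Uf _)
        rw [C.enc_mul, C.enc_mul, hUf, hUf, hTf, hTf]
        exact Nat.eq_of_beq_eq_true h3))
    exact ⟨congrArg Fin.val ha, congrArg Fin.val hu⟩
  have hsum : ∀ (a b : Fin D.N) (pa ua pb ub : ℕ), D.tabOK C.mul a pa ua = true →
      D.tabOK C.mul b pb ub = true → F.c (Uf a) (Uf b) = (D.coresSum ua pb ub : ZMod D.n) := by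
    intro a b pa ua pb ub ha hb
    rw [QCert.coresSum, sum_sumN, K.cores_c f hf h0 h0']
    refine Finset.sum_congr rfl fun i _ => ?_
    simp only [f]
    rw [(htab a pa ua ha _).2, (htab b pb ub hb i).1, (htab b pb ub hb i).2]
  refine ⟨F, X, Y, hXY, ?_⟩
  have hv' : D.coresSum ux py uy % D.n = (D.coresSum uy px ux + v) % D.n :=
    Nat.eq_of_beq_eq_true hv
  simp only [commVal, hXY, F.one_left, List.map_nil, List.prod_nil, add_zero, sub_zero]
  rw [hsum _ _ _ _ _ _ htx hty, hsum _ _ _ _ _ _ hty htx,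
    ← ZMod.natCast_mod (D.coresSum ux py uy), hv', ZMod.natCast_mod]
  push_cast
  ring

end Cfsg.Agent.SchurSmall
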