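import Cfsg.Agent.SchurSmall.PackMat

set_option autoImplicit false
set_option maxRecDepth 4000

/-!
Fast multiplication of codes of 7 by 7 matrices over the field with three elements: the product is
a sum of seven outer products, each one multiplication of numbers.
-/

namespace Cfsg.Agent.SchurSmall.FastSeven

open Cfsg.Agent.SchurCert Cfsg.Agent.SchurBound

/-- The slots of the first column. -/
def colMask : ℕ := 0x7c0000000f80000001f00000003e00000007c0000000f80000001f
/-- The slots of the first row. -/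
def rowMask : ℕ := 0x7ffffffff
/-- The lowest bit of every slot. -/
def m1 : ℕ := 0x1084210842108421084210842108421084210842108421084210842108421
/-- The two lowest bits of every slot. -/
def m3 : ℕ := 0x318c6318c6318c6318c6318c6318c6318c6318c6318c6318c6318c6318c63
/-- The three lowest bits of every slot. -/
def m7 : ℕ := 0x739ce739ce739ce739ce739ce739ce739ce739ce739ce739ce739ce739ce7

/-- One outer product. -/
def outer (q r j : ℕ) : ℕ :=
  Nat.mul (Nat.land (Nat.shiftRight q (Nat.mul 5 j)) colMask)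
    (Nat.land (Nat.shiftRight r (Nat.mul 35 j)) rowMask)

/-- One folding step. -/
def foldA (x : ℕ) : ℕ := Nat.add (Nat.land x m3) (Nat.land (Nat.shiftRight x 2) m7)

/-- A further folding step. -/
def foldB (x : ℕ) : ℕ := Nat.add (Nat.land x m3) (Nat.land (Nat.shiftRight x 2) m3)

/-- Clear the slots equal to three. -/
def clear (x : ℕ) : ℕ :=
  Nat.sub x (Nat.mul 3 (Nat.land (Nat.land x (Nat.shiftRight x 1)) m1))

/-- The product of two codes. -/
def mulFast (q r : ℕ) : ℕ :=
  clear (foldB (foldB (foldB (foldA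
    (Nat.add (Nat.add (Nat.add (Nat.add (Nat.add (Nat.add (outer q r 0) (outer q r 1))
      (outer q r 2)) (outer q r 3)) (outer q r 4)) (outer q r 5)) (outer q r 6))))))

/-- One slot of `foldA`. -/
def slotA (v : ℕ) : ℕ := (v &&& 3) + ((v >>> 2) &&& 7)
/-- One slot of `foldB`. -/
def slotB (v : ℕ) : ℕ := (v &&& 3) + ((v >>> 2) &&& 3)
/-- One slot of the bit cleared. -/
def slotT (v : ℕ) : ℕ := (v &&& (v >>> 1)) &&& 1

theorem pack_add (f g : ℕ → ℕ) : ∀ n, pack f n + pack g n = pack (fun k => f k + g k) n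
  | 0 => rfl
  | n + 1 => by
    simp only [pack, Nat.shiftLeft_eq, ← pack_add f g n]
    ring

theorem testBit_pack (f : ℕ → ℕ) : ∀ n, (∀ k < n, f k < 32) → ∀ i,
    (pack f n).testBit i = (decide (i / 5 < n) && (f (i / 5)).testBit (i % 5))
  | 0, _, i => by simp [pack]
  | n + 1, h, i => by
    have hlt := (pack_spec f n fun k hk => h k (Nat.lt_succ_of_lt hk)).1
    rw [show pack f (n + 1) = 2 ^ (5 * n) * f n + pack f n by
      rw [pack, Nat.shiftLeft_eq]; ring, Nat.testBit_two_pow_mul_add _ hlt]
    split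
    · rename_i hi
      rw [testBit_pack f n (fun k hk => h k (Nat.lt_succ_of_lt hk))]
      have h1 : i / 5 < n := by omega
      have h2 : i / 5 < n + 1 := by omega
      simp [h1, h2]
    · rename_i hi
      rcases lt_trichotomy (i / 5) n with h1 | h1 | h1
      · omega
      · rw [h1, show i - 5 * n = i % 5 by omega]
        simp
      · have h2 : ¬ i / 5 < n + 1 := by omega
        have h3 : 5 ≤ i - 5 * n := by omega
        simp [h2, Nat.testBit_lt_two_pow ((h n n.lt_succ_self).trans_le
          (le_trans (by norm_num) (Nat.pow_le_pow_right (by norm_num) h3)))]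

/-- Shift and mask, slot by slot. -/
theorem shift_mask (f c : ℕ → ℕ) (n n' j s : ℕ) (hf : ∀ k < n, f k < 32) (hs : s < 5)
    (hc : ∀ k < n', c k < 2 ^ (5 - s)) :
    (pack f n >>> (5 * j + s)) &&& pack c n' =
      pack (fun k => ((if k + j < n then f (k + j) else 0) >>> s) &&& c k) n' := by
  have hc' : ∀ k < n', c k < 32 := fun k hk =>
    (hc k hk).trans_le (le_trans (Nat.pow_le_pow_right (by norm_num) (Nat.sub_le 5 s)) (by norm_num))
  apply Nat.eq_of_testBit_eq
  intro i
  rw [Nat.testBit_and, Nat.testBit_shiftRight, testBit_pack f n hf, testBit_pack c n' hc',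
    testBit_pack _ n' (fun k hk => lt_of_le_of_lt Nat.and_le_right (hc' k hk))]
  by_cases hin : i / 5 < n'
  swap
  · simp [hin]
  simp only [hin, decide_true, Bool.true_and, Nat.testBit_and, Nat.testBit_shiftRight]
  by_cases hb : i % 5 < 5 - s
  · rw [show (5 * j + s + i) / 5 = i / 5 + j by omega, show (5 * j + s + i) % 5 = s + i % 5 by omega]
    split
    · rename_i h; simp [h]
    · rename_i h; simp [h]
  · have h0 : (c (i / 5)).testBit (i % 5) = false := Nat.testBit_lt_two_pow
      ((hc _ hin).trans_le (Nat.pow_le_pow_right (by norm_num) (by omega)))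
    simp [h0]

theorem outer_pack (a b : ℕ → ℕ) :
    pack (fun k => if k % 7 = 0 then a k else 0) 49 * pack b 7 =
      pack (fun k => a (7 * (k / 7)) * b (k % 7)) 49 := by
  simp only [pack, Nat.shiftLeft_eq]
  norm_num
  ring

theorem colMask_eq : colMask = pack (fun k => if k % 7 = 0 then 31 else 0) 49 := by decide +kernel
theorem rowMask_eq : rowMask = pack (fun _ => 31) 7 := by decide +kernel
theorem m1_eq : m1 = pack (fun _ => 1) 49 := by decide +kernel
theorem m3_eq : m3 = pack (fun _ => 3) 49 := by decide +kernel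
theorem m7_eq : m7 = pack (fun _ => 7) 49 := by decide +kernel

theorem and31 (x : ℕ) (hx : x < 32) : x &&& 31 = x := by
  rw [show (31 : ℕ) = 2 ^ 5 - 1 from rfl, Nat.and_two_pow_sub_one_eq_mod]
  exact Nat.mod_eq_of_lt hx

theorem outer_eq (a b : ℕ → ℕ) (ha : ∀ k < 49, a k < 3) (hb : ∀ k < 49, b k < 3) {j : ℕ}
    (hj : j < 7) : outer (pack a 49) (pack b 49) j =
      pack (fun k => a (7 * (k / 7) + j) * b (7 * j + k % 7)) 49 := by
  have ha' : ∀ k < 49, a k < 32 := fun k hk => (ha k hk).trans (by norm_num)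
  have hb' : ∀ k < 49, b k < 32 := fun k hk => (hb k hk).trans (by norm_num)
  show ((pack a 49 >>> (5 * j)) &&& colMask) * ((pack b 49 >>> (35 * j)) &&& rowMask) = _
  rw [colMask_eq, rowMask_eq, show 5 * j = 5 * j + 0 from rfl,
    show 35 * j = 5 * (7 * j) + 0 by ring,
    shift_mask a _ 49 49 j 0 ha' (by norm_num) (fun k _ => by split <;> norm_num),
    shift_mask b _ 49 7 (7 * j) 0 hb' (by norm_num) (fun k _ => by norm_num),
    PackMat.pack_congr 49 (g := fun k => if k % 7 = 0 then a (k + j) else 0) (fun k hk => by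
      by_cases h7 : k % 7 = 0
      · have hkj : k + j < 49 := by omega
        simp only [h7, if_true, hkj, Nat.shiftRight_zero]
        exact and31 _ (ha' _ hkj)
      · simp [h7]),
    PackMat.pack_congr 7 (g := fun k => b (7 * j + k)) (fun k hk => by
      have hkj : k + 7 * j < 49 := by omega
      simp only [hkj, if_true, Nat.shiftRight_zero]
      rw [and31 _ (hb' _ hkj), add_comm]),
    outer_pack (fun k => a (k + j))]

theorem slot_op (f : ℕ → ℕ) (hf : ∀ k < 49, f k < 32) (s : ℕ) (hs : s < 5) (c : ℕ)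
    (hc : c < 2 ^ (5 - s)) :
    (pack f 49 >>> s) &&& pack (fun _ => c) 49 = pack (fun k => (f k >>> s) &&& c) 49 := by
  have h := shift_mask f (fun _ => c) 49 49 0 s hf hs (fun k _ => hc)
  rw [Nat.mul_zero, Nat.zero_add] at h
  rw [h]
  exact PackMat.pack_congr 49 fun k hk => by simp [hk]

theorem foldA_eq (f : ℕ → ℕ) (hf : ∀ k < 49, f k < 32) :
    foldA (pack f 49) = pack (fun k => slotA (f k)) 49 := by
  show (pack f 49 &&& m3) + ((pack f 49 >>> 2) &&& m7) = _
  rw [m3_eq, m7_eq, slot_op f hf 2 (by norm_num) 7 (by norm_num)]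
  have h := slot_op f hf 0 (by norm_num) 3 (by norm_num)
  simp only [Nat.shiftRight_zero] at h
  rw [h, pack_add]
  rfl

theorem foldB_eq (f : ℕ → ℕ) (hf : ∀ k < 49, f k < 32) :
    foldB (pack f 49) = pack (fun k => slotB (f k)) 49 := by
  show (pack f 49 &&& m3) + ((pack f 49 >>> 2) &&& m3) = _
  rw [m3_eq, slot_op f hf 2 (by norm_num) 3 (by norm_num)]
  have h := slot_op f hf 0 (by norm_num) 3 (by norm_num)
  simp only [Nat.shiftRight_zero] at h
  rw [h, pack_add]
  rfl

theorem clear_eq (f : ℕ → ℕ) (hf : ∀ k < 49, f k < 4) :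
    clear (pack f 49) = pack (fun k => f k - 3 * slotT (f k)) 49 := by
  have hf' : ∀ k < 49, f k < 32 := fun k hk => (hf k hk).trans (by norm_num)
  have h1 : (pack f 49 &&& (pack f 49 >>> 1)) &&& m1 = pack (fun k => slotT (f k)) 49 := by
    rw [m1_eq, Nat.and_assoc, slot_op f hf' 1 (by norm_num) 1 (by norm_num)]
    apply Nat.eq_of_testBit_eq
    intro i
    rw [Nat.testBit_and, testBit_pack f 49 hf', testBit_pack _ 49 (fun k _ =>
      lt_of_le_of_lt Nat.and_le_right (by norm_num)), testBit_pack _ 49 (fun k _ => by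
      exact lt_of_le_of_lt Nat.and_le_right (by norm_num))]
    by_cases hi : i / 5 < 49
    · simp only [hi, decide_true, Bool.true_and, slotT, Nat.testBit_and, Bool.and_assoc]
    · simp [hi]
  show pack f 49 - 3 * ((pack f 49 &&& (pack f 49 >>> 1)) &&& m1) = _
  rw [h1]
  set g := fun k => slotT (f k)
  have h3 : 3 * pack g 49 = pack (fun k => g k + g k + g k) 49 := by
    rw [← pack_add, ← pack_add]; ring
  rw [h3, Nat.sub_eq_iff_eq_add]
  · rw [pack_add]
    refine PackMat.pack_congr 49 fun k hk => ?_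
    have key : ∀ v < 4, slotT v + slotT v + slotT v ≤ v := by decide
    have := key _ (hf k hk)
    simp only [g]
    omega
  · have : pack f 49 = pack (fun k => g k + g k + g k) 49 + pack (fun k => f k - 3 * g k) 49 := by
      rw [pack_add]
      refine PackMat.pack_congr 49 fun k hk => ?_
      have key : ∀ v < 4, slotT v + slotT v + slotT v ≤ v := by decide
      have := key _ (hf k hk)
      simp only [g]
      omega
    exact le_of_le_of_eq (Nat.le_add_right _ _) this.symm

theorem sumN_seven (f : ℕ → ℕ) : sumN f 7 = f 0 + f 1 + f 2 + f 3 + f 4 + f 5 + f 6 := by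
  show 0 + f 0 + f 1 + f 2 + f 3 + f 4 + f 5 + f 6 = _
  rw [Nat.zero_add]

theorem mulFast_eq (a b : ℕ → ℕ) (ha : ∀ k < 49, a k < 3) (hb : ∀ k < 49, b k < 3) :
    mulFast (pack a 49) (pack b 49) = PackMat.mulCode 3 7 (pack a 49) (pack b 49) := by
  have hs : ∀ k < 49, ∀ j < 7, a (7 * (k / 7) + j) * b (7 * j + k % 7) ≤ 4 := fun k hk j hj =>
    Nat.mul_le_mul (Nat.le_of_lt_succ (ha _ (by omega))) (Nat.le_of_lt_succ (hb _ (by omega)))
  let t : ℕ → ℕ → ℕ := fun j k => a (7 * (k / 7) + j) * b (7 * j + k % 7)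
  let c : ℕ → ℕ := fun k => t 0 k + t 1 k + t 2 k + t 3 k + t 4 k + t 5 k + t 6 k
  have hc : ∀ k < 49, c k < 29 := fun k hk => by
    have := hs k hk 0 (by norm_num); have := hs k hk 1 (by norm_num)
    have := hs k hk 2 (by norm_num); have := hs k hk 3 (by norm_num)
    have := hs k hk 4 (by norm_num); have := hs k hk 5 (by norm_num)
    have := hs k hk 6 (by norm_num)
    simp only [c, t]; omega
  have key : ∀ v < 29, slotA v < 32 ∧ slotB (slotA v) < 32 ∧ slotB (slotB (slotA v)) < 32 ∧
      slotB (slotB (slotB (slotA v))) < 4 ∧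
      slotB (slotB (slotB (slotA v))) - 3 * slotT (slotB (slotB (slotB (slotA v)))) = v % 3 := by
    decide +kernel
  rw [mulFast]
  simp only [Nat.add_eq]
  rw [outer_eq a b ha hb (show 0 < 7 by norm_num), outer_eq a b ha hb (show 1 < 7 by norm_num),
    outer_eq a b ha hb (show 2 < 7 by norm_num), outer_eq a b ha hb (show 3 < 7 by norm_num),
    outer_eq a b ha hb (show 4 < 7 by norm_num), outer_eq a b ha hb (show 5 < 7 by norm_num),
    outer_eq a b ha hb (show 6 < 7 by norm_num)]
  simp only [pack_add]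
  show clear (foldB (foldB (foldB (foldA (pack c 49))))) = _
  rw [foldA_eq c (fun k hk => (hc k hk).trans (by norm_num)),
    foldB_eq _ (fun k hk => (key _ (hc k hk)).1), foldB_eq _ (fun k hk => (key _ (hc k hk)).2.1),
    foldB_eq _ (fun k hk => (key _ (hc k hk)).2.2.1), clear_eq _ (fun k hk => (key _ (hc k hk)).2.2.2.1),
    PackMat.mulCode]
  refine PackMat.pack_congr 49 fun k hk => ?_
  rw [(key _ (hc k hk)).2.2.2.2]
  have g : ∀ (f : ℕ → ℕ), (∀ k < 49, f k < 3) → ∀ n < 49, getC (pack f 49) n = f n := fun f hf n hn =>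
    (pack_spec f 49 fun k hk => (hf k hk).trans (by norm_num)).2 n hn
  show c k % 3 = PackMat.mulEntry 3 7 _ _ k
  simp only [PackMat.mulEntry, sumN_seven, Nat.add_eq, Nat.mul_eq, show Nat.div k 7 = k / 7 from rfl,
    show Nat.mod k 7 = k % 7 from rfl]
  rw [g a ha _ (by omega), g a ha _ (by omega), g a ha _ (by omega), g a ha _ (by omega),
    g a ha _ (by omega), g a ha _ (by omega), g a ha _ (by omega), g b hb _ (by omega),
    g b hb _ (by omega), g b hb _ (by omega), g b hb _ (by omega), g b hb _ (by omega),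
    g b hb _ (by omega), g b hb _ (by omega)]
  simp only [c, t, Nat.add_zero]
  rfl

theorem enc_mul {ι : Type*} [Fintype ι] (e : ι ≃ Fin 7) (M N : Matrix ι ι (ZMod 3)) :
    PackMat.enc e (M * N) = mulFast (PackMat.enc e M) (PackMat.enc e N) := by
  have h : ∀ (A : Matrix ι ι (ZMod 3)), ∀ k < 49, PackMat.entry e A k < 3 := fun A k _ => by
    rw [PackMat.entry]; split
    · exact ZMod.val_lt _
    · norm_num
  rw [PackMat.enc_mul e (by norm_num)]
  exact (mulFast_eq _ _ (h M) (h N)).symm

end Cfsg.Agent.SchurSmall.FastSeven
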