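import Cfsg.Agent.SchurSmall.G23CoverChecks
import Cfsg.Agent.G2Three.Model
import Cfsg.Prelude.Def_KGroupFacts

set_option autoImplicit false
set_option maxRecDepth 20000
set_option linter.style.haveILetI false

/-!
A threefold cover of the group presented by Steinberg's relations of type `G₂` over three elements,
from monomial lifts of the root elements on 351 points with three phases.
-/

namespace Cfsg.Agent.SchurSmall.G23

open Cfsg.Agent.SchurBound Cfsg.Agent.G2Three
open scoped commutatorElement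

local notation "Z3" => ZMod 3

theorem els_all (t : Z3) : t ∈ els := by revert t; decide

theorem root_facts {r : ℕ} (hr : r < 12) (t : Z3) {v : ℕ} (hv : v < 1053) :
    getN 11 (tabOf (r, t.val)) v < 1053 ∧
      getN 11 (tabOf (r, (-t).val)) (getN 11 (tabOf (r, t.val)) v) = v ∧
      getN 11 (tabOf (r, t.val)) (sh 1 v) = sh 1 (getN 11 (tabOf (r, t.val)) v) := by
  have h := baseOK_all r hr
  simp only [baseOK, List.all_eq_true] at h
  have h' := allN_iff (h t (els_all t)) v hv
  simp only [Bool.and_eq_true, Nat.blt_eq] at h'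
  exact ⟨h'.1.1, Nat.eq_of_beq_eq_true h'.1.2, Nat.eq_of_beq_eq_true h'.2⟩

theorem sh_eq (k v : ℕ) : sh k v = v / 3 * 3 + (v + k) % 3 := rfl

theorem sh_lt {v : ℕ} (k : ℕ) (h : v < 1053) : sh k v < 1053 := by rw [sh_eq]; omega

/-- The permutation of a root element. -/
def rootP (r : Fin 12) (t : Z3) : Equiv.Perm (Fin 1053) where
  toFun v := ⟨getN 11 (tabOf (r.1, t.val)) v.1, (root_facts r.2 t v.2).1⟩
  invFun v := ⟨getN 11 (tabOf (r.1, (-t).val)) v.1, (root_facts r.2 (-t) v.2).1⟩
  left_inv v := Fin.ext (root_facts r.2 t v.2).2.1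
  right_inv v := Fin.ext (by
    have h := (root_facts r.2 (-t) v.2).2.1
    rwa [neg_neg] at h)

/-- The shift of the phases. -/
def zP : Equiv.Perm (Fin 1053) where
  toFun v := ⟨sh 1 v.1, sh_lt 1 v.2⟩
  invFun v := ⟨sh 2 v.1, sh_lt 2 v.2⟩
  left_inv v := Fin.ext (by simp only [sh_eq]; omega)
  right_inv v := Fin.ext (by simp only [sh_eq]; omega)

theorem zP_pow_val : ∀ (k : ℕ) (v : Fin 1053), ((zP ^ k) v : ℕ) = sh k v.1
  | 0, v => by rw [pow_zero, Equiv.Perm.one_apply, sh_eq]; omega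
  | k + 1, v => by
    rw [pow_succ', Equiv.Perm.mul_apply]
    show sh 1 ((zP ^ k) v : ℕ) = _
    rw [zP_pow_val k v]
    simp only [sh_eq]
    omega

/-- The permutations commuting with the shift of the phases. -/
abbrev MonoGrp : Subgroup (Equiv.Perm (Fin 1053)) := Subgroup.centralizer {zP}

theorem rootP_mem (r : Fin 12) (t : Z3) : rootP r t ∈ MonoGrp := by
  rw [Subgroup.mem_centralizer_iff]
  intro g hg
  rw [Set.mem_singleton_iff] at hg
  subst hg
  ext v
  exact (root_facts r.2 t v.2).2.2.symm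

/-- The lifted root element. -/
def rootM (r : Fin 12) (t : Z3) : MonoGrp := ⟨rootP r t, rootP_mem r t⟩

theorem rootM_inv (r : Fin 12) (t : Z3) : (rootM r t)⁻¹ = rootM r (-t) := by
  apply Subtype.ext
  show (rootP r t)⁻¹ = rootP r (-t)
  ext v
  rfl

theorem zP_mem : zP ∈ MonoGrp := by
  rw [Subgroup.mem_centralizer_iff]
  intro g hg
  rw [Set.mem_singleton_iff] at hg
  rw [hg]

/-- The shift of the phases in the monomial group. -/
def zM : MonoGrp := ⟨zP, zP_mem⟩

theorem zM_central : zM ∈ Subgroup.center MonoGrp := by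
  rw [Subgroup.mem_center_iff]
  intro g
  exact Subtype.ext ((Subgroup.mem_centralizer_iff.1 g.2 zP rfl).symm)

/-- The scalars. -/
abbrev Scal : Subgroup MonoGrp := Subgroup.zpowers zM

instance scalNormal : Scal.Normal :=
  ⟨fun x hx g => by
    rw [Subgroup.mem_center_iff.1 (Subgroup.zpowers_le.2 zM_central hx) g, mul_inv_cancel_right]
    exact hx⟩

theorem zM_order : orderOf zM = 3 := by
  haveI : Fact (Nat.Prime 3) := ⟨Nat.prime_three⟩
  refine orderOf_eq_prime (Subtype.ext (Equiv.ext fun v => Fin.ext ?_)) fun h => ?_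
  · show ((zP ^ 3) v : ℕ) = v
    rw [zP_pow_val, sh_eq]; omega
  · have h' : ((zP : Equiv.Perm (Fin 1053)) 0 : ℕ) = 0 := by
      rw [show zP = 1 from congrArg Subtype.val h]; rfl
    revert h'
    decide +kernel

/-- The lift of a generator. -/
def genImg : Fin Cfsg.Lie.chevG2.nroots × Z3 → MonoGrp := fun p => rootM ⟨p.1.1, p.1.2⟩ p.2

theorem lift_stX (r : ℕ) (hr : r < 12) (t : Z3) :
    FreeGroup.lift genImg (Cfsg.Lie.chevG2.stX r t) = rootM ⟨r, hr⟩ t := by
  have h : r < Cfsg.Lie.chevG2.nroots := hr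
  rw [Cfsg.Lie.ChevalleyDatum.stX, dif_pos h, FreeGroup.lift_apply_of]
  rfl

theorem val_word (w : List (ℕ × Z3)) (hw : ∀ p ∈ w, p.1 < 12) : ∀ v : Fin 1053,
    (((FreeGroup.lift genImg (Cfsg.Lie.chevG2.stWord w) : MonoGrp) : Equiv.Perm (Fin 1053)) v : ℕ) =
      evW (toW w) v.1 := by
  induction w with
  | nil => intro v; simp [Cfsg.Lie.ChevalleyDatum.stWord, evW, evT, toW]
  | cons p w ih =>
    intro v
    have ih' := ih (fun q hq => hw q (List.mem_cons_of_mem _ hq)) v
    simp only [Cfsg.Lie.ChevalleyDatum.stWord, List.map_cons, List.prod_cons, map_mul,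
      Subgroup.coe_mul, Equiv.Perm.mul_apply] at ih' ⊢
    rw [lift_stX p.1 (hw p List.mem_cons_self) p.2]
    show getN 11 (tabOf (p.1, p.2.val)) _ = _
    rw [ih']
    rfl

theorem mem_scal {a b : List (ℕ × Z3)} (ha : ∀ p ∈ a, p.1 < 12) (hb : ∀ p ∈ b, p.1 < 12)
    (h : relOK (toW a) (toW b) = true) :
    FreeGroup.lift genImg (Cfsg.Lie.chevG2.stWord a) *
      (FreeGroup.lift genImg (Cfsg.Lie.chevG2.stWord b))⁻¹ ∈ Scal := by
  set A := FreeGroup.lift genImg (Cfsg.Lie.chevG2.stWord a) with hA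
  set B := FreeGroup.lift genImg (Cfsg.Lie.chevG2.stWord b) with hB
  obtain ⟨k, hk⟩ : ∃ k : ℕ, ∀ i < 351,
      evW (toW a) (3 * i) = sh k (evW (toW b) (3 * i)) :=
    ⟨_, fun i hi => Nat.eq_of_beq_eq_true (allN_iff
      (by unfold relOK sameT at h; exact h) i hi)⟩
  have key : A = zM ^ k * B := by
    refine Subtype.ext (Equiv.ext fun v => ?_)
    let x : Fin 1053 := ⟨3 * (v.1 / 3), by omega⟩
    have hv : v = (zP ^ (v.1 % 3)) x := Fin.ext (by
      rw [zP_pow_val, sh_eq]
      show _ = 3 * (v.1 / 3) / 3 * 3 + (3 * (v.1 / 3) + v.1 % 3) % 3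
      omega)
    have hx : (A : Equiv.Perm (Fin 1053)) x = ((zM ^ k * B : MonoGrp) : Equiv.Perm (Fin 1053)) x := by
      apply Fin.ext
      show _ = ((zP ^ k) ((B : Equiv.Perm (Fin 1053)) x) : ℕ)
      rw [zP_pow_val, hA, hB, val_word a ha, val_word b hb]
      exact hk _ (by omega)
    have comm : ∀ g : MonoGrp, ∀ j : ℕ, (g : Equiv.Perm (Fin 1053)) ((zP ^ j) x) =
        (zP ^ j) ((g : Equiv.Perm (Fin 1053)) x) := fun g j => by
      have hc : Commute (zP ^ j) (g : Equiv.Perm (Fin 1053)) :=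
        Commute.pow_left (Subgroup.mem_centralizer_iff.1 g.2 zP rfl) j
      rw [← Equiv.Perm.mul_apply, ← Equiv.Perm.mul_apply, hc.eq]
    rw [hv, comm, comm, hx]
  rw [key, mul_inv_cancel_right]
  exact pow_mem (Subgroup.mem_zpowers zM) k

/-- The image of a generator modulo the scalars. -/
def genQ : Fin Cfsg.Lie.chevG2.nroots × Z3 → MonoGrp ⧸ Scal := fun p => QuotientGroup.mk' Scal (genImg p)

theorem lift_genQ : (QuotientGroup.mk' Scal).comp (FreeGroup.lift genImg) = FreeGroup.lift genQ := by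
  apply FreeGroup.ext_hom
  intro p
  rw [MonoidHom.comp_apply, FreeGroup.lift_apply_of, FreeGroup.lift_apply_of]
  rfl

theorem rels_ok : ∀ g ∈ Cfsg.Lie.chevG2.steinbergRels Z3, FreeGroup.lift genQ g = 1 := by
  intro g hg
  rw [← lift_genQ, MonoidHom.comp_apply, QuotientGroup.mk'_apply, QuotientGroup.eq_one_iff]
  rcases hg with ((⟨r, t, u, hr, rfl⟩ | ⟨r, s, t, u, hr, hs, hsr, hsn, rfl⟩) | ⟨r, t, u, hr, ht, hu, rfl⟩)
  · have h := addOK_all r hr
    simp only [addOK, List.all_eq_true] at h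
    have hm := mem_scal (a := [(r, t), (r, u)]) (b := [(r, t + u)])
      (by intro p hp; simp at hp; rcases hp with rfl | rfl <;> exact hr)
      (by intro p hp; simp at hp; subst hp; exact hr) (h t (els_all t) u (els_all u))
    simp only [Cfsg.Lie.ChevalleyDatum.stWord, List.map_cons, List.map_nil, List.prod_cons,
      List.prod_nil, mul_one, map_mul] at hm
    simpa only [map_mul, map_inv] using hm
  · have h := commOK_all r hr
    simp only [commOK, List.all_eq_true, List.mem_range] at h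
    have h' := h s hs
    rw [if_neg (not_or.2 ⟨hsr, hsn⟩)] at h'
    simp only [List.all_eq_true] at h'
    have hok := G2Three.okComm_true
    simp only [okComm, List.all_eq_true, List.mem_range] at hok
    have hok' := hok r hr s hs
    rw [if_neg (not_or.2 ⟨hsr, hsn⟩)] at hok'
    simp only [List.all_eq_true, Bool.and_eq_true, decide_eq_true_eq] at hok'
    have hm := mem_scal (a := [(s, -u), (r, -t), (s, u), (r, t)])
      (b := Cfsg.Lie.chevG2.commWord Z3 r s t u)
      (by
        intro p hp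
        simp at hp
        rcases hp with rfl | rfl | rfl | rfl <;> first | exact hs | exact hr)
      (hok' t (els_all t) u (els_all u)).2 (h' t (els_all t) u (els_all u))
    simp only [Cfsg.Lie.ChevalleyDatum.stWord, List.map_cons, List.map_nil, List.prod_cons,
      List.prod_nil, mul_one, map_mul, lift_stX r hr, lift_stX s hs] at hm
    simp only [map_mul, map_inv, lift_stX r hr, lift_stX s hs, rootM_inv,
      Cfsg.Lie.ChevalleyDatum.stWord]
    simpa only [mul_assoc] using hm
  · have h := hOK_all r hr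
    simp only [hOK, List.all_eq_true] at h
    have h' := h t (els_all t) u (els_all u)
    rw [if_neg (not_or.2 ⟨ht, hu⟩)] at h'
    have hok := G2Three.okH_true
    simp only [okH, List.all_eq_true, List.mem_range] at hok
    have hok' := hok r hr t (els_all t) u (els_all u)
    rw [if_neg (not_or.2 ⟨ht, hu⟩)] at hok'
    simp only [Bool.and_eq_true, decide_eq_true_eq] at hok'
    have hw : ∀ x : Z3, ∀ p ∈ Cfsg.Lie.chevG2.hWord r x, p.1 < 12 := by
      intro x p hp
      simp only [Cfsg.Lie.ChevalleyDatum.hWord, Cfsg.Lie.ChevalleyDatum.nWord, List.cons_append,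
        List.nil_append, List.mem_cons, List.not_mem_nil, or_false] at hp
      rcases hp with rfl | rfl | rfl | rfl | rfl | rfl <;> first | exact hr | exact hok'.2
    have hm := mem_scal (a := Cfsg.Lie.chevG2.hWord r t ++ Cfsg.Lie.chevG2.hWord r u)
      (b := Cfsg.Lie.chevG2.hWord r (t * u))
      (fun p hp => (List.mem_append.1 hp).elim (hw t p) (hw u p)) (hw _) h'
    simp only [Cfsg.Lie.ChevalleyDatum.stWord, List.map_append, List.prod_append, map_mul] at hm
    simpa only [map_mul, map_inv, Cfsg.Lie.ChevalleyDatum.stH, Cfsg.Lie.ChevalleyDatum.stWord] using hm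

/-- The group presented by Steinberg's relations. -/
abbrev SG : Type := Cfsg.Lie.chevG2.SteinbergGroup Z3

/-- The map to the monomial group modulo scalars. -/
def homQ : SG →* MonoGrp ⧸ Scal := PresentedGroup.toGroup rels_ok

/-- The pullback. -/
abbrev Cov : Subgroup (SG × MonoGrp) :=
  MonoidHom.eqLocus (homQ.comp (MonoidHom.fst SG MonoGrp))
    ((QuotientGroup.mk' Scal).comp (MonoidHom.snd SG MonoGrp))

theorem exists_stem_three [Finite SG] : ∃ (W : Type) (_ : Group W) (_ : Finite W) (σ : W →* SG),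
    Cfsg.IsStemExtension σ ∧ Nat.card σ.ker = 3 := by
  let σ : Cov →* SG := (MonoidHom.fst SG MonoGrp).comp Cov.subtype
  have hσ : Function.Surjective σ := fun g => by
    obtain ⟨m, hm⟩ := QuotientGroup.mk'_surjective Scal (homQ g)
    exact ⟨⟨(g, m), hm.symm⟩, rfl⟩
  let zW : Cov := ⟨(1, zM), by
    show homQ 1 = QuotientGroup.mk' Scal zM
    rw [map_one, QuotientGroup.mk'_apply]
    exact ((QuotientGroup.eq_one_iff zM).2 (Subgroup.mem_zpowers zM)).symm⟩
  have hmem : ∀ w : Cov, w ∈ σ.ker → w.1.1 = 1 ∧ w.1.2 ∈ Scal := fun w hw => by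
    have h1 : w.1.1 = 1 := hw
    refine ⟨h1, ?_⟩
    have h2 : homQ w.1.1 = QuotientGroup.mk' Scal w.1.2 := w.2
    rw [h1, map_one, QuotientGroup.mk'_apply] at h2
    exact (QuotientGroup.eq_one_iff w.1.2).1 h2.symm
  have hker : σ.ker = Subgroup.zpowers zW := by
    refine le_antisymm (fun w hw => ?_) (Subgroup.zpowers_le.2 rfl)
    obtain ⟨h1, h2⟩ := hmem w hw
    obtain ⟨j, hj⟩ := Subgroup.mem_zpowers_iff.1 h2
    refine Subgroup.mem_zpowers_iff.2 ⟨j, Subtype.ext ?_⟩
    rw [SubgroupClass.coe_zpow]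
    exact Prod.ext (by rw [Prod.pow_fst, one_zpow]; exact h1.symm) (by rw [Prod.pow_snd]; exact hj)
  have hcard : Nat.card σ.ker = 3 := by
    rw [hker, Nat.card_zpowers, ← Subgroup.orderOf_coe zW]
    show orderOf ((1 : SG), zM) = 3
    rw [Prod.orderOf_mk, orderOf_one, Nat.lcm_one_left, zM_order]
  have hcen : σ.ker ≤ Subgroup.center Cov := fun w hw => by
    obtain ⟨h1, h2⟩ := hmem w hw
    refine Subgroup.mem_center_iff.2 fun y => Subtype.ext (Prod.ext ?_ ?_)
    · show y.1.1 * w.1.1 = w.1.1 * y.1.1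
      rw [h1, mul_one, one_mul]
    · exact Subgroup.mem_center_iff.1 (Subgroup.zpowers_le.2 zM_central h2) y.1.2
  have hX : ∀ r : Fin 12, homQ (PresentedGroup.of (⟨r.1, r.2⟩, 1)) =
      QuotientGroup.mk' Scal (rootM r 1) := fun r => PresentedGroup.toGroup.of rels_ok
  let X : Cov := ⟨(PresentedGroup.of (⟨0, by decide⟩, 1), rootM 0 1), hX 0⟩
  let Y : Cov := ⟨(PresentedGroup.of (⟨4, by decide⟩, 1), rootM 4 1), hX 4⟩
  have hXY : ⁅X, Y⁆ ∈ σ.ker := by
    show σ ⁅X, Y⁆ = 1
    rw [map_commutatorElement, commutatorElement_eq_one_iff_mul_comm]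
    show (PresentedGroup.of (⟨0, by decide⟩, (1 : Z3)) : SG) * PresentedGroup.of (⟨4, by decide⟩, 1) =
      PresentedGroup.of (⟨4, by decide⟩, 1) * PresentedGroup.of (⟨0, by decide⟩, 1)
    have hmem : (Cfsg.Lie.chevG2.stX 4 (1 : Z3))⁻¹ * (Cfsg.Lie.chevG2.stX 0 1)⁻¹ *
        Cfsg.Lie.chevG2.stX 4 1 * Cfsg.Lie.chevG2.stX 0 1 *
        (Cfsg.Lie.chevG2.stWord (Cfsg.Lie.chevG2.commWord Z3 0 4 1 1))⁻¹ ∈
        Cfsg.Lie.chevG2.steinbergRels Z3 :=
      Or.inl (Or.inr ⟨0, 4, 1, 1, by decide, by decide, by decide, by decide +kernel, rfl⟩)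
    have h1 := PresentedGroup.one_of_mem (rels := Cfsg.Lie.chevG2.steinbergRels Z3) hmem
    have hnil : Cfsg.Lie.chevG2.commWord Z3 0 4 (1 : Z3) 1 = [] := by decide +kernel
    simp only [hnil, Cfsg.Lie.ChevalleyDatum.stWord, List.map_nil, List.prod_nil, inv_one, mul_one,
      Cfsg.Lie.ChevalleyDatum.stX, dif_pos (show 0 < Cfsg.Lie.chevG2.nroots by decide),
      dif_pos (show 4 < Cfsg.Lie.chevG2.nroots by decide), map_mul, map_inv] at h1
    rw [mul_assoc, ← _root_.mul_inv_rev, inv_mul_eq_one] at h1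
    exact h1
  have hne : ⁅X, Y⁆ ≠ 1 := fun h => by
    have h2 : ⁅rootM 0 1, rootM 4 1⁆ = (1 : MonoGrp) := by
      have := congrArg (fun w : Cov => w.1.2) h
      exact this
    rw [commutatorElement_def, rootM_inv, rootM_inv] at h2
    have h3 := val_word [(0, 1), (4, 1), (0, -1), (4, -1)] (by decide) (0 : Fin 1053)
    simp only [Cfsg.Lie.ChevalleyDatum.stWord, List.map_cons, List.map_nil, List.prod_cons,
      List.prod_nil, mul_one, map_mul, lift_stX 0 (by decide), lift_stX 4 (by decide)] at h3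
    rw [← mul_assoc, ← mul_assoc, show (⟨0, by decide⟩ : Fin 12) = 0 from rfl,
      show (⟨4, by decide⟩ : Fin 12) = 4 from rfl, h2] at h3
    exact comm_nontrivial h3.symm
  refine ⟨Cov, inferInstance, inferInstance, σ, ⟨hσ, hcen, ?_⟩, hcard⟩
  have hgen : Subgroup.zpowers ⁅X, Y⁆ = σ.ker := by
    refine Subgroup.eq_of_le_of_card_ge (Subgroup.zpowers_le.2 hXY) ?_
    have hdvd : orderOf ⁅X, Y⁆ ∣ 3 := (Subgroup.orderOf_dvd_natCard σ.ker hXY).trans hcard.dvd
    rw [hcard, Nat.card_zpowers]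
    rcases (Nat.dvd_prime Nat.prime_three).1 hdvd with h1 | h3
    · exact absurd (orderOf_eq_one_iff.1 h1) hne
    · exact h3.ge
  rw [← hgen, Subgroup.zpowers_le]
  exact Subgroup.commutator_mem_commutator (Subgroup.mem_top X) (Subgroup.mem_top Y)

end Cfsg.Agent.SchurSmall.G23
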