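import Cfsg.Agent.SchurSmall.G23Code
import Cfsg.Agent.SchurSmall.G23Cover
import Cfsg.Agent.SchurSmall.Rank
import Cfsg.Agent.SchurCert.Trivial
import Cfsg.Agent.ChevGrp.FieldAut
import Mathlib.FieldTheory.Finite.GaloisField

set_option autoImplicit false
set_option maxRecDepth 20000
set_option linter.style.haveILetI false

/-!
The Schur multiplier of the Chevalley group of type `G₂` over three elements.
-/

namespace Cfsg.Agent.SchurSmall.G23

open Matrix Cfsg.Agent.SchurCert Cfsg.Agent.SchurBound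

local notation "Z3" => ZMod 3
local notation "L" => Cfsg.Agent.G2Three.L

instance finiteL : Finite L := by
  refine Nat.finite_of_card_ne_zero ?_
  rw [G2Three.card_L]
  norm_num

/-- Codes of elements through a faithful representation. -/
noncomputable def codeOf (ρ : L →* GL (Fin 7) Z3) (hinj : Function.Injective ρ) : Code L where
  mul := PackMat.mulCode 3 7
  one := oneCode
  enc g := enc7 ((ρ g : GL (Fin 7) Z3) : Matrix (Fin 7) (Fin 7) Z3)
  enc_one := by rw [map_one, Units.val_one]; rfl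
  enc_mul a b := by rw [map_mul, Units.val_mul]; exact PackMat.enc_mul _ (by norm_num) _ _
  enc_inj a b h := hinj (Units.ext (PackMat.enc_injective _ (by norm_num) h))

theorem exists_elems (ρ : L →* GL (Fin 7) Z3) (hinj : Function.Injective ρ)
    (hword : ∀ w : List (ℕ × ℕ), (∀ p ∈ w, p.1 < 12 ∧ p.2 < 3) →
      ∃ g : L, (ρ g).1 = G2Three.toM (G2Three.wordM w))
    {W : List (List (ℕ × ℕ))} {cs : List ℕ} (h : wordsOK W cs = true) :
    ∃ f : ℕ → L, ∀ i, (codeOf ρ hinj).enc (f i) = cs.getD i (codeOf ρ hinj).one := by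
  simp only [wordsOK, Bool.and_eq_true, decide_eq_true_eq, List.all_eq_true, Nat.blt_eq] at h
  obtain ⟨hmap, hlt⟩ := h
  have key : ∀ i, ∃ g : L, (codeOf ρ hinj).enc g = cs.getD i oneCode := by
    intro i
    by_cases hi : i < W.length
    · obtain ⟨g, hg⟩ := hword (W[i]) (fun p hp => hlt _ (List.getElem_mem hi) p hp)
      refine ⟨g, ?_⟩
      show enc7 ((ρ g : GL (Fin 7) Z3) : Matrix (Fin 7) (Fin 7) Z3) = _
      rw [hg, ← hmap, List.getD_eq_getElem _ _ (by simpa using hi), List.getElem_map]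
      rfl
    · refine ⟨1, ?_⟩
      rw [(codeOf ρ hinj).enc_one, List.getD_eq_default _ _ (by
        rw [← hmap, List.length_map]; exact Nat.le_of_not_lt hi)]
      rfl
  choose f hf using key
  exact ⟨f, hf⟩

theorem exists_applies (ρ : L →* GL (Fin 7) Z3) (hinj : Function.Injective ρ)
    (hword : ∀ w : List (ℕ × ℕ), (∀ p ∈ w, p.1 < 12 ∧ p.2 < 3) →
      ∃ g : L, (ρ g).1 = G2Three.toM (G2Three.wordM w))
    (B : BCert) (p N m : ℕ) {W₁ W₂ : List (List (ℕ × ℕ))}
    (h₁ : wordsOK W₁ B.D.gens = true) (h₂ : wordsOK W₂ B.D.gs = true) (hp : p.Prime)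
    (hP : B.D.P.p = p) (hn : B.D.P.p ^ B.D.P.n = N) (hm : 4245696 = N * m) (hpm : ¬ p ∣ m)
    (hchk : B.check (PackMat.mulCode 3 7) oneCode = true) :
    ∃ gen gsE : ℕ → L, Applies (codeOf ρ hinj) B p gen gsE := by
  obtain ⟨gen, hgen⟩ := exists_elems ρ hinj hword h₁
  obtain ⟨gsE, hgs⟩ := exists_elems ρ hinj hword h₂
  refine ⟨gen, gsE, hp, hP, fun i _ => hgen i, hgs, ?_, hchk⟩
  have hc := hchk
  simp only [BCert.check, Bool.and_eq_true] at hc
  obtain ⟨-, hcard⟩ := card_initGroup_of_groupOK (codeOf ρ hinj) B.D (hP.symm ▸ hp) _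
    (fun i _ => hgen i) hc.1.1.1 hc.1.1.2
  have hL : Nat.card L = 4245696 := by rw [G2Three.card_L]; norm_num
  have h := (initGroup gen B.D.P.n).card_mul_index
  rw [hcard.trans hn, hL, hm] at h
  have hN : 0 < N := by rcases Nat.eq_zero_or_pos N with rfl | h0 <;> omega
  rwa [Nat.eq_of_mul_eq_mul_left hN h]

theorem card_schurMult_le : Nat.card (CentralExt.schurMult L) ≤ 3 := by
  obtain ⟨ρ, hinj, -, hword⟩ := G2Three.exists_rep
  have hpos : Nat.card (CentralExt.schurMult L) ≠ 0 := Nat.card_pos.ne'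
  refine Nat.le_of_dvd (by norm_num) ?_
  rw [← Nat.factorization_le_iff_dvd hpos (by norm_num)]
  intro p
  by_cases hp : p.Prime
  swap
  · simp [Nat.factorization_eq_zero_of_not_prime _ hp]
  rcases eq_or_ne p 3 with rfl | h3
  · obtain ⟨g₁, e₁, a₁⟩ := exists_applies ρ hinj hword g23RankCert 3 729 5824 g23Rank_gens
      g23Rank_gs Nat.prime_three rfl (by norm_num [g23RankCert]) (by norm_num) (by norm_num)
      g23Rank_check
    obtain ⟨g₂, e₂, a₂⟩ := exists_applies ρ hinj hword g23ExpCert 3 729 5824 g23Exp_gens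
      g23Exp_gs Nat.prime_three rfl (by norm_num [g23ExpCert]) (by norm_num) (by norm_num)
      g23Exp_check
    refine (SchurSmall.factorization_schurMult_le (codeOf ρ hinj) (k := 1) (r := 1) a₁ a₂
      rfl rfl le_rfl rfl rfl rfl).trans ?_
    exact (Nat.prime_three.pow_dvd_iff_le_factorization (by norm_num)).1 (by norm_num)
  rcases eq_or_ne p 2 with rfl | h2
  · obtain ⟨g₁, e₁, a₁⟩ := exists_applies ρ hinj hword g23TwoCert 2 64 66339 g23Two_gens
      g23Two_gs Nat.prime_two rfl (by norm_num [g23TwoCert]) (by norm_num) (by norm_num)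
      g23Two_check
    refine (SchurSmall.factorization_schurMult_le (codeOf ρ hinj) (k := 0) (r := 0) a₁ a₁
      rfl rfl le_rfl rfl rfl rfl).trans ?_
    exact Nat.zero_le _
  haveI : Fact p.Prime := ⟨hp⟩
  rw [Nat.factorization_eq_zero_of_not_dvd (not_dvd_schurMult_of_sq_not_dvd p fun hsq => ?_)]
  · exact Nat.zero_le _
  rw [G2Three.card_L] at hsq
  have hdvd : p ∣ 2 ^ 6 * 3 ^ 6 * (7 * 13) :=
    (dvd_pow_self p two_ne_zero).trans (by rwa [mul_assoc] at hsq)
  rcases hp.dvd_mul.1 hdvd with h | h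
  · rcases hp.dvd_mul.1 h with h'' | h''
    · exact h2 ((Nat.prime_dvd_prime_iff_eq hp Nat.prime_two).1 (hp.dvd_of_dvd_pow h''))
    · exact h3 ((Nat.prime_dvd_prime_iff_eq hp Nat.prime_three).1 (hp.dvd_of_dvd_pow h''))
  · have hle : p ≤ 91 := Nat.le_of_dvd (by norm_num) h
    have key : ∀ q < 92, q ∣ 7 * 13 → q ^ 2 ∣ 2 ^ 6 * 3 ^ 6 * 7 * 13 → q = 1 := by decide +kernel
    exact hp.ne_one (key p (by omega) h hsq)

theorem hasCyclicSchurMultiplier_G23 {F : Type*} [Field F] [Fintype F] (hF : Fintype.card F = 3) :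
    Cfsg.HasCyclicSchurMultiplier ↥(Cfsg.Lie.chevG2.group F) 3 := by
  obtain ⟨θ, hsurj, hker, -⟩ := S1077.result (K := Z3) Cfsg.Lie.chevG2 (by simp)
  have hinj : Function.Injective θ := (MonoidHom.ker_eq_bot_iff θ).1
    (by rw [hker, S1078.result (K := Z3) Cfsg.Lie.chevG2 (by simp)])
  let e : SG ≃* L := MulEquiv.ofBijective θ ⟨hinj, hsurj⟩
  obtain ⟨r⟩ : Nonempty (Z3 ≃+* F) :=
    ⟨FiniteField.ringEquivOfCardEq ((ZMod.card 3).trans hF.symm)⟩
  haveI : Finite SG := Finite.of_equiv _ e.symm.toEquiv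
  obtain ⟨W, _, _, σ, hσ, hc⟩ := exists_stem_three
  haveI : Fact (Nat.Prime 3) := ⟨Nat.prime_three⟩
  haveI : IsCyclic σ.ker := isCyclic_of_prime_card hc
  have hle : Nat.card (CentralExt.schurMult SG) ≤ 3 := by
    obtain ⟨j⟩ := CentralExt.nonempty_schurMult_congr e
    rw [Nat.card_congr j.toEquiv]
    exact card_schurMult_le
  exact CentralExt.hasSchurMultiplier_congr (e.trans (ChevGrp.groupEquiv Cfsg.Lie.chevG2 r))
    (CentralExt.hasSchurMultiplier_of_stem hσ (hle.trans hc.ge)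
      (mulEquivOfCyclicCardEq (by rw [hc, Nat.card_congr Multiplicative.toAdd, Nat.card_zmod])))

end Cfsg.Agent.SchurSmall.G23
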