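import Cfsg.Agent.SchurSmall.PackMat
import Cfsg.Agent.SchurSmall.G23Data
import Cfsg.Agent.G2Three.Model

set_option autoImplicit false
set_option maxRecDepth 20000

/-!
Codes of the elements of the seven-dimensional model of `G₂(3)` and the checks of the certificates.
-/

namespace Cfsg.Agent.SchurSmall.G23

open Cfsg.Agent.SchurCert Cfsg.Agent.SchurBound Cfsg.Agent.G2Three

/-- The code of a matrix. -/
def enc7 (A : Matrix (Fin 7) (Fin 7) (ZMod 3)) : ℕ := PackMat.enc (Equiv.refl (Fin 7)) A

/-- The code of the identity. -/
def oneCode : ℕ := enc7 1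

/-- The code of a word. -/
def wordCode (L : List (ℕ × ℕ)) : ℕ := enc7 (G2Three.toM (wordM L))

/-- The words of a certificate give its codes. -/
def wordsOK (W : List (List (ℕ × ℕ))) (cs : List ℕ) : Bool :=
  decide (W.map wordCode = cs) && W.all fun L => L.all fun p => Nat.blt p.1 12 && Nat.blt p.2 3

theorem g23Exp_gens : wordsOK g23ExpGenW g23ExpCert.D.gens = true := by decide +kernel
theorem g23Exp_gs : wordsOK g23ExpGsW g23ExpCert.D.gs = true := by decide +kernel
theorem g23Rank_gens : wordsOK g23RankGenW g23RankCert.D.gens = true := by decide +kernel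
theorem g23Rank_gs : wordsOK g23RankGsW g23RankCert.D.gs = true := by decide +kernel
theorem g23Two_gens : wordsOK g23TwoGenW g23TwoCert.D.gens = true := by decide +kernel
theorem g23Two_gs : wordsOK g23TwoGsW g23TwoCert.D.gs = true := by decide +kernel
theorem g23Two_check : g23TwoCert.check (PackMat.mulCode 3 7) oneCode = true := by decide +kernel
theorem g23Exp_check : g23ExpCert.check (PackMat.mulCode 3 7) oneCode = true := by decide +kernel
theorem g23Rank_check : g23RankCert.check (PackMat.mulCode 3 7) oneCode = true := by decide +kernel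

end Cfsg.Agent.SchurSmall.G23
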