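import Cfsg.Agent.SchurSmall.Rank
import Cfsg.Agent.SchurSmall.G24Data
import Cfsg.Agent.GKTools.G2Four

set_option autoImplicit false
set_option maxRecDepth 20000
set_option linter.style.haveILetI false

/-!
Codes of six by six matrices over four elements, one packed row in each twelve bit slot.
-/

namespace Cfsg.Agent.SchurSmall.G24

open Matrix Cfsg.Agent.SchurCert Cfsg.Agent.SchurBound Cfsg.Agent.GKTools.G2Model

local notation "F4" => Cfsg.Agent.Plane21.F4

/-- The two bits of an entry in column `k`. -/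
def slot (x : F4) (k : ℕ) : ℕ := (x.code % 2) * 2 ^ k + (x.code / 2) * 2 ^ (6 + k)

/-- A packed row. -/
def rowOf (a b c d e f : F4) : ℕ :=
  slot a 0 + slot b 1 + slot c 2 + slot d 3 + slot e 4 + slot f 5

theorem ent_rowOf : ∀ a b c d e f : F4, ∀ j : Fin 6,
    ent (rowOf a b c d e f) j = ![a, b, c, d, e, f] j := by
  decide +kernel

theorem rowOf_ent_all : (List.range 4096).all (fun r =>
    Nat.beq (rowOf (ent r 0) (ent r 1) (ent r 2) (ent r 3) (ent r 4) (ent r 5)) r) = true := by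
  decide +kernel

theorem rowOf_ent {r : ℕ} (hr : r < 4096) :
    rowOf (ent r 0) (ent r 1) (ent r 2) (ent r 3) (ent r 4) (ent r 5) = r :=
  Nat.eq_of_beq_eq_true (List.all_eq_true.1 rowOf_ent_all r (List.mem_range.2 hr))

theorem slot_le : ∀ x : F4, ∀ k : Fin 6, slot x k ≤ 2 ^ (k : ℕ) + 2 ^ (6 + (k : ℕ)) := by decide +kernel

theorem rowOf_lt (a b c d e f : F4) : rowOf a b c d e f < 4096 := by
  have h0 := slot_le a 0; have h1 := slot_le b 1; have h2 := slot_le c 2
  have h3 := slot_le d 3; have h4 := slot_le e 4; have h5 := slot_le f 5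
  norm_num at h0 h1 h2 h3 h4 h5
  unfold rowOf
  omega

/-- All rows are packed in twelve bits. -/
def Bdd (M : M6) : Prop :=
  M.a < 4096 ∧ M.b < 4096 ∧ M.c < 4096 ∧ M.d < 4096 ∧ M.e < 4096 ∧ M.f < 4096

/-- The packed form of a matrix. -/
def ofM (A : Matrix (Fin 6) (Fin 6) F4) : M6 :=
  ⟨rowOf (A 0 0) (A 0 1) (A 0 2) (A 0 3) (A 0 4) (A 0 5),
    rowOf (A 1 0) (A 1 1) (A 1 2) (A 1 3) (A 1 4) (A 1 5),
    rowOf (A 2 0) (A 2 1) (A 2 2) (A 2 3) (A 2 4) (A 2 5),
    rowOf (A 3 0) (A 3 1) (A 3 2) (A 3 3) (A 3 4) (A 3 5),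
    rowOf (A 4 0) (A 4 1) (A 4 2) (A 4 3) (A 4 4) (A 4 5),
    rowOf (A 5 0) (A 5 1) (A 5 2) (A 5 3) (A 5 4) (A 5 5)⟩

theorem ofM_bdd (A : Matrix (Fin 6) (Fin 6) F4) : Bdd (ofM A) :=
  ⟨rowOf_lt .., rowOf_lt .., rowOf_lt .., rowOf_lt .., rowOf_lt .., rowOf_lt ..⟩

theorem toM_ofM (A : Matrix (Fin 6) (Fin 6) F4) : toM (ofM A) = A := by
  ext i j
  fin_cases i <;> (simp only [toM, ofM, Matrix.of_apply]; simp [ent_rowOf]; fin_cases j <;> rfl)

theorem ofM_toM {M : M6} (h : Bdd M) : ofM (toM M) = M := by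
  obtain ⟨h1, h2, h3, h4, h5, h6⟩ := h
  obtain ⟨a, b, c, d, e, f⟩ := M
  simp only [ofM, toM, Matrix.of_apply, M6.mk.injEq]
  exact ⟨rowOf_ent h1, rowOf_ent h2, rowOf_ent h3, rowOf_ent h4, rowOf_ent h5, rowOf_ent h6⟩

theorem wmul_lt (r : ℕ) : wmul r < 2 ^ 12 := by
  have h1 : ((r >>> 6) &&& 63) < 2 ^ 12 := lt_of_le_of_lt Nat.and_le_right (by norm_num)
  have h2 : (((r &&& 63) ^^^ ((r >>> 6) &&& 63)) <<< 6) < 2 ^ 12 := by
    have h3 : ((r &&& 63) ^^^ ((r >>> 6) &&& 63)) < 2 ^ 6 :=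
      Nat.xor_lt_two_pow (lt_of_le_of_lt Nat.and_le_right (by norm_num))
        (lt_of_le_of_lt Nat.and_le_right (by norm_num))
    rw [Nat.shiftLeft_eq]
    omega
  exact Nat.or_lt_two_pow h1 h2

theorem scal_lt (u k : ℕ) {r : ℕ} (hr : r < 2 ^ 12) : scal u k r < 2 ^ 12 := by
  refine Nat.xor_lt_two_pow ?_ ?_
  · cases Nat.testBit u k
    · exact Nat.two_pow_pos 12
    · exact hr
  · cases Nat.testBit u (6 + k)
    · exact Nat.two_pow_pos 12
    · exact wmul_lt r

theorem mmul_bdd (A : M6) {B : M6} (hB : Bdd B) : Bdd (mmul A B) := by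
  obtain ⟨h1, h2, h3, h4, h5, h6⟩ := hB
  have key : ∀ u, rowMul u B < 4096 := fun u =>
    Nat.xor_lt_two_pow (n := 12) (Nat.xor_lt_two_pow (Nat.xor_lt_two_pow (Nat.xor_lt_two_pow
      (Nat.xor_lt_two_pow (scal_lt u 0 h1) (scal_lt u 1 h2)) (scal_lt u 2 h3)) (scal_lt u 3 h4))
      (scal_lt u 4 h5)) (scal_lt u 5 h6)
  exact ⟨key _, key _, key _, key _, key _, key _⟩

/-- The number of a packed matrix. -/
def num (M : M6) : ℕ :=
  M.a + 4096 * (M.b + 4096 * (M.c + 4096 * (M.d + 4096 * (M.e + 4096 * M.f))))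

/-- The packed matrix of a number. -/
def den (n : ℕ) : M6 :=
  ⟨n % 4096, n / 4096 % 4096, n / 16777216 % 4096, n / 68719476736 % 4096,
    n / 281474976710656 % 4096, n / 1152921504606846976 % 4096⟩

/-- The product of two numbers of matrices. -/
def mulCode (q r : ℕ) : ℕ := num (mmul (den q) (den r))

theorem den_num {M : M6} (h : Bdd M) : den (num M) = M := by
  obtain ⟨h1, h2, h3, h4, h5, h6⟩ := h
  obtain ⟨a, b, c, d, e, f⟩ := M
  simp only [den, num, M6.mk.injEq]
  simp only at h1 h2 h3 h4 h5 h6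
  refine ⟨?_, ?_, ?_, ?_, ?_, ?_⟩ <;> omega

/-- The code of a matrix. -/
def encM (A : Matrix (Fin 6) (Fin 6) F4) : ℕ := num (ofM A)

theorem encM_mul (A B : Matrix (Fin 6) (Fin 6) F4) : encM (A * B) = mulCode (encM A) (encM B) := by
  rw [encM, encM, encM, mulCode, den_num (ofM_bdd A), den_num (ofM_bdd B)]
  conv_lhs => rw [← toM_ofM A, ← toM_ofM B, ← toM_mul, ofM_toM (mmul_bdd _ (ofM_bdd B))]

theorem encM_injective : Function.Injective encM := fun A B h => by
  have h' := congrArg den h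
  rw [encM, encM, den_num (ofM_bdd A), den_num (ofM_bdd B)] at h'
  rw [← toM_ofM A, h', toM_ofM]

/-- The code of the identity. -/
def oneCode : ℕ := num one6

theorem one6_bdd : Bdd one6 := by unfold Bdd one6; norm_num

theorem encM_one : encM 1 = oneCode := by
  rw [encM, oneCode, ← toM_one6, ofM_toM one6_bdd]

/-- A word in root elements given by numbers. -/
def wd (L : List (ℕ × ℕ)) : List (ℕ × F4) := L.map fun p => (p.1, Cfsg.Agent.Plane21.F4.ofCode p.2)

/-- The code of a word. -/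
def wordCode (L : List (ℕ × ℕ)) : ℕ := num (wordM (wd L))

theorem wordM_bdd : ∀ w : List (ℕ × F4), Bdd (wordM w)
  | [] => one6_bdd
  | p :: w => mmul_bdd _ (wordM_bdd w)

theorem encM_word (L : List (ℕ × ℕ)) : encM (toM (wordM (wd L))) = wordCode L := by
  rw [encM, ofM_toM (wordM_bdd _), wordCode]

/-- The words of a certificate give its codes. -/
def wordsOK (W : List (List (ℕ × ℕ))) (cs : List ℕ) : Bool :=
  decide (W.map wordCode = cs) && W.all fun L => L.all fun p => Nat.blt p.1 12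

theorem g24Exp_gens : wordsOK g24ExpGenW g24ExpCert.D.gens = true := by decide +kernel
theorem g24Exp_gs : wordsOK g24ExpGsW g24ExpCert.D.gs = true := by decide +kernel
theorem g24Rank_gens : wordsOK g24RankGenW g24RankCert.D.gens = true := by decide +kernel
theorem g24Rank_gs : wordsOK g24RankGsW g24RankCert.D.gs = true := by decide +kernel
theorem g24Three_gens : wordsOK g24ThreeGenW g24ThreeCert.D.gens = true := by decide +kernel
theorem g24Three_gs : wordsOK g24ThreeGsW g24ThreeCert.D.gs = true := by decide +kernel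
theorem g24Five_gens : wordsOK g24FiveGenW g24FiveCert.D.gens = true := by decide +kernel
theorem g24Five_gs : wordsOK g24FiveGsW g24FiveCert.D.gs = true := by decide +kernel

theorem g24Three_check : g24ThreeCert.check mulCode oneCode = true := by decide +kernel
theorem g24Five_check : g24FiveCert.check mulCode oneCode = true := by decide +kernel
theorem g24Exp_check : g24ExpCert.check mulCode oneCode = true := by decide +kernel
theorem g24Rank_check : g24RankCert.check mulCode oneCode = true := by decide +kernel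

end Cfsg.Agent.SchurSmall.G24
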