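import Cfsg.Agent.SchurSmall.G2Code
import Cfsg.Agent.SchurSmall.G2CoresData
import Cfsg.Agent.SchurSmall.G2Bounds

set_option autoImplicit false
set_option maxRecDepth 100000

/-!
Checks of the certificates for G2(3).
-/

namespace Cfsg.Agent.SchurSmall

open Cfsg.Agent.SchurCert Cfsg.Agent.SchurBound

theorem g2Exp_check : g2ExpCert.check FastSeven.mulFast g2One = true := by decide +kernel

theorem g2Rank_check : g2RankCert.check FastSeven.mulFast g2One = true := by decide +kernel

theorem g2Two_check : g2TwoCert.check FastSeven.mulFast g2One = true := by decide +kernel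

end Cfsg.Agent.SchurSmall
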